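import Mathlib
import Cfsg.Agent.Lib.Asch.Group

/-! The normaliser of `5^(1+2)` is maximal in `SL₅(p)`: vocabulary.  See `plans/WL5.md`. -/

set_option autoImplicit false

namespace CfsgLib.Wl5

open Matrix Subgroup Cfsg Cfsg.Geo CfsgLib.Asch
open scoped commutatorElement

variable {F : Type*} [Field F]

abbrev I5 : Type := Fin 3 ⊕ Fin 2

abbrev P32 (F : Type*) [Field F] : Type _ := GL (Fin 3) F × GL (Fin 2) F

/-- block diagonal matrices -/
def bd : P32 F →* GL I5 F where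
  toFun g := ⟨fromBlocks g.1.1 0 0 g.2.1, fromBlocks (g.1⁻¹).1 0 0 (g.2⁻¹).1,
    by simp [fromBlocks_multiply], by simp [fromBlocks_multiply]⟩
  map_one' := Units.ext (by simp)
  map_mul' a b := Units.ext (by simp [fromBlocks_multiply])

theorem coe_bd (g : P32 F) : (bd g : Matrix I5 I5 F) = fromBlocks g.1.1 0 0 g.2.1 := rfl

theorem bd_injective : Function.Injective (bd : P32 F → GL I5 F) := fun a b h => by
  have := fromBlocks_inj.1 (congrArg Units.val h)
  exact Prod.ext (Units.ext this.1) (Units.ext this.2.2.2)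

theorem det_bd (g : P32 F) : (bd g : Matrix I5 I5 F).det = g.1.1.det * g.2.1.det := by
  rw [coe_bd, det_fromBlocks_zero₂₁]

theorem bd_mulVec (g : P32 F) (v : Fin 3 → F) (w : Fin 2 → F) :
    (bd g : Matrix I5 I5 F) *ᵥ Sum.elim v w = Sum.elim (g.1.1 *ᵥ v) (g.2.1 *ᵥ w) := by
  rw [coe_bd, fromBlocks_mulVec]; simp

/-- the involution `diag(1,1,1,-1,-1)` -/
def zz : GL I5 F := bd (1, -1)

/-- the first and second projections of a subgroup of `GL₃ × GL₂` -/
abbrev p3 (K : Subgroup (P32 F)) : Subgroup (GL (Fin 3) F) := K.map (MonoidHom.fst _ _)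

abbrev p2 (K : Subgroup (P32 F)) : Subgroup (GL (Fin 2) F) := K.map (MonoidHom.snd _ _)

/-- change of basis -/
def trG {ι κ : Type} [Fintype ι] [DecidableEq ι] [Fintype κ] [DecidableEq κ] {B : Matrix ι κ F}
    {B' : Matrix κ ι F} (h1 : B * B' = 1) (h2 : B' * B = 1) : GL ι F ≃* GL κ F := Units.mapEquiv
  { toFun g := B' * g * B
    invFun g := B * g * B'
    left_inv g := by
      simp only [Matrix.mul_assoc, h1, Matrix.mul_one]; rw [← Matrix.mul_assoc, h1, Matrix.one_mul]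
    right_inv g := by
      simp only [Matrix.mul_assoc, h2, Matrix.mul_one]; rw [← Matrix.mul_assoc, h2, Matrix.one_mul]
    map_mul' g h := by
      simp only [Matrix.mul_assoc]; rw [← Matrix.mul_assoc B B', h1, Matrix.one_mul] }

theorem coe_trG {ι κ : Type} [Fintype ι] [DecidableEq ι] [Fintype κ] [DecidableEq κ]
    {B : Matrix ι κ F} {B' : Matrix κ ι F} (h1 : B * B' = 1) (h2 : B' * B = 1) (g : GL ι F) :
    (trG h1 h2 g : Matrix κ κ F) = B' * g.1 * B := rfl

/-- a Heisenberg pair -/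
structure HP {ι : Type} [Fintype ι] [DecidableEq ι] (ζ : Fˣ) (x y : GL ι F) : Prop where
  prim : IsPrimitiveRoot (ζ : F) 5
  x5 : x ^ 5 = 1
  y5 : y ^ 5 = 1
  comm : x * y = sc ι ζ * (y * x)
  env_top : env (closure {x, y}) = ⊤

/-- the normaliser of `R` in `SL` -/
abbrev NS {ι : Type} [Fintype ι] [DecidableEq ι] (R : Subgroup (GL ι F)) : Subgroup (GL ι F) :=
  normalizer (R : Set (GL ι F)) ⊓ specialLinear ι F

/-- what is used about `R = 5^(1+2)` and its normaliser -/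
structure Mdl (R : Subgroup (GL I5 F)) (K : Subgroup (P32 F)) : Prop where
  perfect : ⁅K, K⁆ = K
  env3 : env (p3 K) = ⊤
  env2 : env (p2 K) = ⊤
  nrm : ∀ k ∈ K, bd k ∈ NS R
  zn : zz ∈ NS R
  stab : ∀ A : Subalgebra F (Matrix I5 I5 F), Stab (NS R) A → A = ⊥ ∨ A = ⊤
  fin : ∀ L : Subgroup (GL I5 F), scalars I5 F ≤ L → Nrm (NS R) L → ¬ L ≤ scalars I5 F →
    (∀ x ∈ L, ∀ y ∈ L, x * y * x⁻¹ * y⁻¹ ∈ scalars I5 F) →
    normalizer (L : Set (GL I5 F)) ≤ normalizer (R : Set (GL I5 F))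
  proper : ∃ g ∈ specialLinear I5 F, g ∉ normalizer (R : Set (GL I5 F))

/-- the standard pair -/
def X0 (ζ : F) : Matrix (Fin 5) (Fin 5) F := diagonal fun i => ζ ^ (i : ℕ)

def Y0 (F : Type*) [Field F] : Matrix (Fin 5) (Fin 5) F := of fun i j => if i = j + 1 then 1 else 0

/-- `H` contains no transvection -/
def NoT {ι : Type} [Fintype ι] [DecidableEq ι] (H : Subgroup (GL ι F)) : Prop :=
  ∀ g ∈ H, ∀ v φ : ι → F, φ ⬝ᵥ v = 0 → (g : Matrix ι ι F) = 1 + vecMulVec v φ → g = 1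

end CfsgLib.Wl5
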