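import Mathlib
import Cfsg.Agent.Lib.Wl5.Heis
import Cfsg.Agent.Lib.SLCases.Proper
import Cfsg.Agent.Lib.CasesSp.Basic

/-! The Weil representation of `SL₂(5)`.  See `plans/WL5.md`. -/

set_option autoImplicit false
set_option linter.unusedSectionVars false

namespace CfsgLib.Wl5

open Matrix Subgroup Cfsg Cfsg.Geo CfsgLib.Asch
open scoped commutatorElement

variable {F : Type*} [Field F] [Finite F] {R : Subgroup (GL (Fin 5) F)}

section

variable {ι κ : Type} [Fintype ι] [DecidableEq ι] [Fintype κ] [DecidableEq κ] {B : Matrix ι κ F} {B' : Matrix κ ι F}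

theorem weil_top {A : Subalgebra F (Matrix ι ι F)} {d : ι → F} (hd : Function.Injective d) (hA : diagonal d ∈ A)
    (hm : ∀ i j, ∃ m ∈ A, m i j ≠ 0) : A = ⊤ := by
  have e : ∀ i, single i i (1 : F) ∈ A := fun i => by
    have : (∏ j ∈ Finset.univ.erase i, (d i - d j)⁻¹ • (d - algebraMap F (ι → F) (d j))) ∈
        A.comap (diagonalAlgHom (n := ι) F) :=
      prod_mem fun j _ => Subalgebra.smul_mem (A.comap _) (sub_mem (show d ∈ A.comap (diagonalAlgHom (n := ι) F) from hA)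
        (Subalgebra.algebraMap_mem _ _)) _
    rw [← diagonal_single]
    change Pi.single i 1 ∈ A.comap (diagonalAlgHom (n := ι) F)
    convert this using 1
    ext k
    rw [Finset.prod_apply]
    by_cases hk : k = i
    · subst hk
      rw [Pi.single_eq_same, eq_comm]
      exact Finset.prod_eq_one fun j hj => inv_mul_cancel₀ (sub_ne_zero.2 (hd.ne (Finset.ne_of_mem_erase hj).symm))
    · rw [Pi.single_eq_of_ne hk, eq_comm]
      exact Finset.prod_eq_zero (Finset.mem_erase.2 ⟨hk, Finset.mem_univ k⟩) (by simp)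
  refine eq_top_iff.2 fun a _ => ?_
  rw [matrix_eq_sum_single a]
  refine sum_mem fun i _ => sum_mem fun j _ => ?_
  obtain ⟨m, hm, m0⟩ := hm i j
  have := A.smul_mem (mul_mem (mul_mem (e i) hm) (e j)) (a i j * (m i j)⁻¹)
  rwa [single_mul_mul_single, smul_single, smul_eq_mul, one_mul, mul_one, inv_mul_cancel_right₀ m0] at this

theorem weil_env (h1 : B * B' = 1) (h2 : B' * B = 1) {H : Subgroup (GL ι F)} {H' : Subgroup (GL κ F)}
    (h : ∀ g ∈ H, trG h1 h2 g ∈ H') (he : env H = ⊤) : env H' = ⊤ := by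
  refine eq_top_iff.2 fun a _ => ?_
  have : B' * (B * a * B') * B ∈ env H' := env_induction (N := H) (p := fun m => B' * m * B ∈ env H')
    (fun g hg => coe_mem_env (h g hg)) (by simp) (fun a b ha hb => by
      rw [Matrix.mul_add, Matrix.add_mul]; exact add_mem ha hb) (fun c a ha => by
      rw [Matrix.mul_smul, Matrix.smul_mul]; exact Subalgebra.smul_mem _ ha _) (he.ge Algebra.mem_top)
  simpa only [Matrix.mul_assoc, h2, Matrix.mul_one, ← Matrix.mul_assoc B' B, Matrix.one_mul] using this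

theorem weil_sc (h1 : B * B' = 1) (h2 : B' * B = 1) (s : Fˣ) : trG h1 h2 (sc ι s) = sc κ s :=
  Units.ext (by simp [coe_trG, coe_sc, h2])

theorem weil_sl (h1 : B * B' = 1) (h2 : B' * B = 1) (g : GL ι F) :
    trG h1 h2 g ∈ specialLinear κ F ↔ g ∈ specialLinear ι F := by
  simp only [specialLinear, MonoidHom.mem_ker, Units.ext_iff, GeneralLinearGroup.val_det_apply, coe_trG,
    det_conj_of_mul_eq_one h2 h1]

theorem weil_tr (h1 : B * B' = 1) (h2 : B' * B = 1) {g : GL ι F} {m : Matrix κ κ F} (e : g.1 * B = B * m) :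
    (trG h1 h2 g).1 = m := by
  rw [coe_trG, Matrix.mul_assoc, e, ← Matrix.mul_assoc, h2, Matrix.one_mul]

theorem HP.tr (h1 : B * B' = 1) (h2 : B' * B = 1) {ζ : Fˣ} {x y : GL ι F} (h : HP ζ x y) :
    HP ζ (trG h1 h2 x) (trG h1 h2 y) := by
  refine ⟨h.prim, by rw [← map_pow, h.x5, map_one], by rw [← map_pow, h.y5, map_one], ?_, weil_env h1 h2 (fun g hg => ?_) h.env_top⟩
  · rw [← map_mul, h.comm, map_mul, weil_sc, map_mul]
  · have := mem_map_of_mem (trG h1 h2).toMonoidHom hg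
    rwa [MonoidHom.map_closure, Set.image_pair] at this

theorem weil_det {g z : GL ι F} (h5 : g ^ 5 = 1) (h : z * g * z⁻¹ = g⁻¹) : g ∈ specialLinear ι F := by
  have a := congrArg GeneralLinearGroup.det h5
  have b := congrArg GeneralLinearGroup.det h
  rw [map_mul, map_mul, map_inv, map_inv, mul_inv_cancel_comm, eq_inv_iff_mul_eq_one] at b
  rw [map_pow, map_one, show 5 = 2 * 2 + 1 from rfl, pow_succ, pow_mul, pow_two, pow_two, b, one_mul, one_mul] at a
  exact a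

end

theorem weil_perfect {G : Type*} [Group G] {a b : G} (ha : a ^ 5 = 1) (hb : b ^ 4 = 1) (hab : (a * b) ^ 3 = 1) :
    ⁅closure {a, b}, closure {a, b}⁆ = closure ({a, b} : Set G) := by
  set K := closure ({a, b} : Set G)
  have ma : a ∈ K := subset_closure (by simp)
  have mb : b ∈ K := subset_closure (by simp)
  let f := Abelianization.of (G := K)
  have k : ∀ {c : K}, f c = 1 → c.1 ∈ ⁅K, K⁆ := fun {c} e => by
    rw [← map_subtype_commutator]
    exact mem_map_of_mem K.subtype ((QuotientGroup.eq_one_iff c).1 e)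
  have e1 : f ⟨a, ma⟩ ^ 5 = 1 := by rw [← map_pow, show (⟨a, ma⟩ : K) ^ 5 = 1 from Subtype.ext ha, map_one]
  have e2 : f ⟨b, mb⟩ ^ 4 = 1 := by rw [← map_pow, show (⟨b, mb⟩ : K) ^ 4 = 1 from Subtype.ext hb, map_one]
  have e3 : f ⟨a, ma⟩ ^ 3 * f ⟨b, mb⟩ ^ 3 = 1 := by
    rw [← mul_pow, ← map_mul, ← map_pow, show ((⟨a, ma⟩ : K) * ⟨b, mb⟩) ^ 3 = 1 from Subtype.ext hab, map_one]
  have e4 : f ⟨a, ma⟩ = 1 := by
    have := congrArg (· ^ 12) e3
    simp only [mul_pow, ← pow_mul, one_pow] at this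
    rwa [show 3 * 12 = 5 * 7 + 1 from rfl, pow_succ, pow_mul, e1, show 5 * 7 + 1 = 4 * 9 from rfl, pow_mul, e2, one_pow, one_pow,
      one_mul, mul_one] at this
  have e5 : f ⟨b, mb⟩ = 1 := by
    rw [e4, one_pow, one_mul] at e3
    rwa [pow_succ, e3, one_mul] at e2
  refine le_antisymm (commutator_le.2 fun x hx y hy => mul_mem (mul_mem (mul_mem hx hy) (inv_mem hx)) (inv_mem hy)) ?_
  refine (closure_le _).2 ?_
  rintro _ (rfl | rfl)
  exacts [k e4, k e5]

theorem weil_Y0_pow (k : ℕ) (j : Fin 5) : (Y0 F ^ k) (j + k • 1) j = 1 := by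
  have : Y0 F ^ k = of fun i j => if i = j + k • 1 then 1 else 0 := by
    induction k with
    | zero => ext i j; simp [one_apply]
    | succ k ih =>
      ext i j
      rw [pow_succ, ih, mul_apply, Finset.sum_eq_single (j + 1)]
      · simp only [Y0, of_apply, if_true, mul_one, succ_nsmul', add_assoc]
      · exact fun b _ n => by simp [Y0, n]
      · simp
  simp [this]

theorem exists_nf (hR : IsSymplecticTypeGroup 5 R) (habs : ActsAbsolutelyIrreducibly (matrixSet R))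
    (hZ : Nat.card (center R) = 5) : ∃ (ζ : Fˣ) (x y : GL (Fin 5) F) (B B' : Matrix (Fin 5) (Fin 5) F),
      B * B' = 1 ∧ B' * B = 1 ∧ HP ζ x y ∧ R = closure {x, y} ∧ x.1 * B = B * X0 (ζ : F) ∧
      y.1 * B = B * Y0 F := by
  have : Fact (Nat.Prime 5) := ⟨Nat.prime_five⟩
  have h5 : ∀ x ∈ R, x ^ 5 = 1 := fun x hx => by
    have := Monoid.pow_exponent_eq_one (⟨x, hx⟩ : R)
    rw [hR.exponent_eq] at this
    exact congrArg Subtype.val this
  have cm : ∀ g ∈ R, ∀ h ∈ R, g * h * g⁻¹ * h⁻¹ ∈ scalars (Fin 5) F := fun g hg h hh =>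
    (CasesSp.mem_center_iff_scalar habs _).1 (SLCases.comm_mem_center
      Nat.prime_five hR.pGroup hR.cyclic_of_characteristic (by rw [hZ, hR.exponent_eq]; rfl) ⟨g, hg⟩ ⟨h, hh⟩)
  obtain ⟨x, hx, y, hy, n⟩ : ∃ x ∈ R, ∃ g ∈ R, x * g ≠ g * x := by
    simpa using not_comm_of_env (by simp) (span_eq_top_of_absIrred habs)
  obtain ⟨ζ, e⟩ := mem_scalars_iff_sc.1 (cm x hx y hy)
  have c : x * y = sc (Fin 5) ζ * (y * x) := by rw [e]; group
  have pr : IsPrimitiveRoot (ζ : F) 5 := by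
    have : orderOf ζ = 5 := orderOf_eq_prime (sc_injective (ι := Fin 5) (by
      rw [map_pow, map_one, e]
      exact h5 _ (mul_mem (mul_mem (mul_mem hx hy) (inv_mem hx)) (inv_mem hy)))) fun e1 => n (by
        rw [c, e1, map_one, one_mul])
    exact IsPrimitiveRoot.coe_units_iff.2 (this ▸ IsPrimitiveRoot.orderOf ζ)
  have k : ∀ (j : ℕ) (v : Fin 5 → F), x.1 *ᵥ (y ^ j).1 *ᵥ v = (ζ : F) ^ j • (y ^ j).1 *ᵥ x.1 *ᵥ v := fun j v => by
    induction j with
    | zero => simp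
    | succ j ih =>
      rw [pow_succ', Units.val_mul, ← mulVec_mulVec, mulVec_mulVec _ x.1, ← Units.val_mul, c, Units.val_mul, coe_sc,
        smul_mul_assoc, one_mul, smul_mulVec, Units.val_mul, ← mulVec_mulVec, ih, mulVec_smul, smul_smul, ← pow_succ',
        ← mulVec_mulVec]
  obtain ⟨b, -, b0, i, hi⟩ := heis_eig pr (toLin' x.1) (fun a => by
    simp only [toLin'_apply, mulVec_mulVec, ← Units.val_mul]
    rw [show x * (x * (x * (x * x))) = 1 by rw [← h5 x hx]; simp only [pow_succ, pow_zero, one_mul, mul_assoc]]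
    simp) (W := ⊤) (U := ⊥) (fun _ _ => trivial) (a := Pi.single 0 1) trivial (by simp)
  set v := (y ^ i).1 *ᵥ b
  have hv : x.1 *ᵥ v = v := by rw [k, ← mulVec_smul, ← toLin'_apply x.1, hi]
  have nz : ∀ (g : GL (Fin 5) F) (w : Fin 5 → F), w ≠ 0 → g.1 *ᵥ w ≠ 0 := fun g w w0 e =>
    w0 (by rw [← inv_mulVec_mulVec g w, e, mulVec_zero])
  let B : Matrix (Fin 5) (Fin 5) F := of fun r j => ((y ^ j.val).1 *ᵥ v) r
  have inj : Function.Injective fun j : Fin 5 => (ζ : F) ^ j.val := fun i j e => Fin.ext (pr.pow_inj i.2 j.2 e)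
  obtain ⟨B', h1⟩ := (linearIndependent_cols_iff_isUnit.1 (Module.End.eigenvectors_linearIndependent' (toLin' x.1) _ inj B.col
    fun j => ⟨Module.End.mem_eigenspace_iff.2 (by
      change x.1 *ᵥ (y ^ j.val).1 *ᵥ v = _ • (y ^ j.val).1 *ᵥ v
      rw [k, hv]), nz _ _ (nz _ _ b0)⟩)).exists_right_inv
  have h2 := mul_eq_one_comm.1 h1
  have ex : x.1 * B = B * X0 (ζ : F) := by
    ext r j
    rw [X0, mul_diagonal, mul_comm]
    exact congrFun ((k j v).trans (by rw [hv])) r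
  have ey : y.1 * B = B * Y0 F := by
    ext r j
    rw [mul_apply (M := B), Finset.sum_eq_single (j + 1) (fun b _ n => by simp [Y0, n]) (by simp)]
    simp only [Y0, of_apply, if_true, mul_one, B]
    rw [Fin.val_add, ← pow_eq_pow_mod _ (h5 y hy), show ((1 : Fin 5) : ℕ) = 1 from rfl, pow_succ', Units.val_mul,
      ← mulVec_mulVec]
    rfl
  have hx' : ∀ {G : Type _} [Group G] (x y : G), x ∈ closure {x, y} ∧ y ∈ closure {x, y} :=
    fun x y => ⟨subset_closure (by simp), subset_closure (by simp)⟩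
  have H : HP ζ x y := ⟨pr, h5 x hx, h5 y hy, c, weil_env h2 h1 (H := closure {trG h1 h2 x, trG h1 h2 y}) (fun g hg => by
    have := mem_map_of_mem (trG h1 h2).symm.toMonoidHom hg
    rw [MonoidHom.map_closure, Set.image_pair] at this
    change (trG h1 h2).symm g ∈ _
    simpa using this) (weil_top inj (show X0 (ζ : F) ∈ _ from weil_tr h1 h2 ex ▸ coe_mem_env (hx' _ _).1) fun i j =>
      ⟨_, pow_mem (weil_tr h1 h2 ey ▸ coe_mem_env (hx' _ _).2) (i - j).val, by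
        have := weil_Y0_pow (F := F) (i - j).val j
        rw [(by decide : ∀ i j : Fin 5, j + (i - j).val • 1 = i)] at this
        rw [this]; exact one_ne_zero⟩)⟩
  refine ⟨ζ, x, y, B, B', h1, h2, H, le_antisymm (fun g hg => ?_) ((closure_le _).2 ?_), ex, ey⟩
  · obtain ⟨d, k, l, e⟩ := H.mem_of_comm (cm g hg x hx) (cm g hg y hy)
    refine H.mem_of_pow ?_ (h5 g hg)
    rw [e]
    exact mul_mem (mem_sup_right (Asch.sc_mem d)) (mem_sup_left (mul_mem (pow_mem (hx' _ _).1 k) (pow_mem (hx' _ _).2 l)))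
  · rintro _ (rfl | rfl) <;> assumption

section

variable (z : F)

def weilU : Matrix (Fin 5) (Fin 5) F := diagonal ![1, z ^ 3, z ^ 2, z ^ 2, z ^ 3]

def weilF : Matrix (Fin 5) (Fin 5) F := of fun i j => z ^ (i.val * j.val)

def weilZ (F : Type*) [Field F] : Matrix (Fin 5) (Fin 5) F := 
  !![1, 0, 0, 0, 0; 0, 0, 0, 0, 1; 0, 0, 0, 1, 0; 0, 0, 1, 0, 0; 0, 1, 0, 0, 0]

def weilC3 (F : Type*) [Field F] : Matrix (Fin 5) (Fin 3) F := !![1, 0, 0; 0, 1, 0; 0, 0, 1; 0, 0, 1; 0, 1, 0]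

def weilC2 (F : Type*) [Field F] : Matrix (Fin 5) (Fin 2) F := !![0, 0; 1, 0; 0, 1; 0, -1; -1, 0]

def weilD3 (h : F) : Matrix (Fin 3) (Fin 5) F := !![1, 0, 0, 0, 0; 0, h, 0, 0, h; 0, 0, h, h, 0]

def weilD2 (h : F) : Matrix (Fin 2) (Fin 5) F := !![0, h, 0, 0, -h; 0, 0, h, -h, 0]

def weilc3 : Matrix (Fin 3) (Fin 3) F := !![1, 2, 2; 1, z + z ^ 4, z ^ 2 + z ^ 3; 1, z ^ 2 + z ^ 3, z + z ^ 4]

def weilc2 : Matrix (Fin 2) (Fin 2) F := !![z - z ^ 4, z ^ 2 - z ^ 3; z ^ 2 - z ^ 3, z ^ 4 - z]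

variable {z}

theorem weil_B {h : F} (e : h + h = 1) : fromCols (weilC3 F) (weilC2 F) * fromRows (weilD3 h) (weilD2 h) = 1 ∧
    fromRows (weilD3 h) (weilD2 h) * fromCols (weilC3 F) (weilC2 F) = 1 := by
  have : fromCols (weilC3 F) (weilC2 F) * fromRows (weilD3 h) (weilD2 h) = 1 := by
    rw [fromCols_mul_fromRows]
    ext i j
    fin_cases i <;> fin_cases j <;> simp [weilC3, weilC2, weilD3, weilD2, e]
  exact ⟨this, (mul_eq_one_comm_of_equiv (finSumFinEquiv (m := 3) (n := 2)).symm).1 this⟩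

theorem weil_rel (h : z ^ 5 = 1) : weilU z * X0 z = X0 z * weilU z ∧ weilU z * Y0 F = z ^ 2 • (X0 z * Y0 F * weilU z) ∧
    Y0 F * weilF z * X0 z = weilF z ∧ weilF z * Y0 F = X0 z * weilF z ∧ X0 z * weilZ F * X0 z = weilZ F ∧
    Y0 F * weilZ F * Y0 F = weilZ F := by
  refine ⟨?_, ?_, ?_, ?_, ?_, ?_⟩ <;> ext i j <;> fin_cases i <;> fin_cases j <;>
    simp [weilU, weilF, weilZ, X0, Y0, mul_apply, Fin.sum_univ_succ, diagonal_apply] <;> grind

theorem weil_blk (h : z ^ 5 = 1) : weilU z * weilC3 F = weilC3 F * diagonal ![1, z ^ 3, z ^ 2] ∧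
    weilU z * weilC2 F = weilC2 F * diagonal ![z ^ 3, z ^ 2] ∧ weilF z * weilC3 F = weilC3 F * weilc3 z ∧
    weilF z * weilC2 F = weilC2 F * weilc2 z ∧ weilZ F * weilC3 F = weilC3 F ∧ weilZ F * weilC2 F = -weilC2 F := by
  refine ⟨?_, ?_, ?_, ?_, ?_, ?_⟩ <;> ext i j <;> fin_cases i <;> fin_cases j <;>
    simp [weilU, weilF, weilZ, weilC3, weilC2, weilc3, weilc2, mul_apply, Fin.sum_univ_succ, diagonal_apply] <;> grind

theorem weil_sq (h : 1 + z + z ^ 2 + z ^ 3 + z ^ 4 = 0) : weilc3 z * weilc3 z = (5 : F) • 1 ∧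
    weilc2 z * weilc2 z = (-5 : F) • 1 ∧
    (diagonal ![1, z ^ 3, z ^ 2] * weilc3 z) ^ 3 = (-5 * (1 + 2 * z + 2 * z ^ 4)) • 1 ∧
    (diagonal ![z ^ 3, z ^ 2] * weilc2 z) ^ 3 = (-5 * (1 + 2 * z + 2 * z ^ 4)) • 1 := by
  refine ⟨?_, ?_, ?_, ?_⟩ <;> ext i j <;> fin_cases i <;> fin_cases j <;>
    simp [weilc3, weilc2, pow_succ, mul_apply, Fin.sum_univ_succ, diagonal_apply] <;> grind

end

theorem weil_mdl {ζ c : Fˣ} {X Y t : GL I5 F} {a b : P32 F} (H : HP ζ X Y) (ha : a ^ 5 = 1) (hb : b ^ 4 = 1)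
    (hab : (a * b) ^ 3 = 1) (e3 : env (p3 (closure {a, b})) = ⊤) (e2 : env (p2 (closure {a, b})) = ⊤)
    (r1 : bd a * X * (bd a)⁻¹ = X) (r2 : bd a * Y * (bd a)⁻¹ = sc I5 c * (X * Y)) (r3 : bd b * X * (bd b)⁻¹ = Y⁻¹)
    (r4 : bd b * Y * (bd b)⁻¹ = X) (r5 : zz * X * zz⁻¹ = X⁻¹) (r6 : zz * Y * zz⁻¹ = Y⁻¹) (ht : t ∈ specialLinear I5 F)
    (ht' : (t * Y * t⁻¹ * Y⁻¹) ^ 5 ≠ 1) : Mdl (closure {X, Y}) (closure {a, b}) := by
  have hX : X ∈ closure {X, Y} := subset_closure (by simp)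
  have hY : Y ∈ closure {X, Y} := subset_closure (by simp)
  have pf := weil_perfect ha hb hab
  have nrm : ∀ k ∈ closure {a, b}, bd k ∈ NS (closure {X, Y}) := fun k hk => by
    refine ⟨(closure_le ((normalizer _).comap bd)).2 ?_ hk, ?_⟩
    · rintro _ (rfl | rfl)
      · refine H.mem_normalizer (r1.symm ▸ hX) (H.mem_of_pow ?_ (by rw [conj_pow, H.y5]; group))
        rw [r2]
        exact mul_mem (mem_sup_right (Asch.sc_mem c)) (mem_sup_left (mul_mem hX hY))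
      · exact H.mem_normalizer (r3.symm ▸ inv_mem hY) (r4.symm ▸ hX)
    · rw [← pf] at hk
      refine (commutator_le (H₃ := (specialLinear I5 F).comap bd)).2 (fun g _ h _ => ?_) hk
      change GeneralLinearGroup.det (bd ⁅g, h⁆) = 1
      rw [map_commutatorElement, map_commutatorElement, commutatorElement_eq_one_iff_mul_comm, mul_comm]
  have nX : X ∈ NS (closure {X, Y}) := ⟨le_normalizer hX, weil_det H.x5 r5⟩
  have nY : Y ∈ NS (closure {X, Y}) := ⟨le_normalizer hY, weil_det H.y5 r6⟩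
  have na := nrm a (subset_closure (by simp))
  have nb := nrm b (subset_closure (by simp))
  refine ⟨pf, e3, e2, nrm, ⟨H.mem_normalizer (r5.symm ▸ inv_mem hX) (r6.symm ▸ inv_mem hY), Units.ext ?_⟩,
    fun A hA => H.stab nX nY na nb r1 r2 r3 hA, fun L h1 h2 h3 h4 => H.fin (by simp) nX nY na nb r1 r2 r3 h1 h2 h3 h4,
    t, ht, fun hn => ht' (H.pow5 (mul_mem (Tech.conj_mem_of_mem_normalizer hn hY) (inv_mem hY)))⟩
  rw [GeneralLinearGroup.val_det_apply, zz, det_bd]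
  simp [det_neg]

theorem exists_mdl (h2 : (2 : F) ≠ 0) (hR : IsSymplecticTypeGroup 5 R)
    (habs : ActsAbsolutelyIrreducibly (matrixSet R)) (hZ : Nat.card (center R) = 5) :
    ∃ (Φ : GL (Fin 5) F ≃* GL I5 F) (K : Subgroup (P32 F)),
      (∀ g, Φ g ∈ specialLinear I5 F ↔ g ∈ specialLinear (Fin 5) F) ∧ Mdl (R.map Φ.toMonoidHom) K := by
  obtain ⟨ζ, x, y, B, B', h1, h1', H, rfl, ex, ey⟩ := exists_nf hR habs hZ
  obtain ⟨k1, k2⟩ := weil_B (h := (2 : F)⁻¹) (by field_simp; norm_num)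
  have pr := H.prim
  obtain ⟨z, hz⟩ : ∃ z : F, (ζ : F) = z := ⟨_, rfl⟩
  rw [hz] at pr ex
  have h5 : z ^ 5 = 1 := pr.pow_eq_one
  have hs : 1 + z + z ^ 2 + z ^ 3 + z ^ 4 = 0 := by
    have := pr.geom_sum_eq_zero (by norm_num)
    simpa [Finset.sum_range_succ] using this
  have n5 : (5 : F) ≠ 0 := by exact_mod_cast (pr.neZero' (n := 5)).out
  obtain ⟨γ, hγ⟩ : ∃ γ : F, γ * (1 + 2 * z + 2 * z ^ 4) = -1 :=
    ⟨-(1 + 2 * z + 2 * z ^ 4) / 5, by field_simp; grind⟩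
  have g2 : γ * γ * 5 = 1 := by grind
  have g3 : γ ^ 3 * (-5 * (1 + 2 * z + 2 * z ^ 4)) = 1 := by grind
  have g0 : γ ≠ 0 := by rintro rfl; simp at hγ
  obtain ⟨q1, q2, q3, q4⟩ := weil_sq hs
  have pa3 : diagonal ![1, z ^ 3, z ^ 2] ^ 5 = 1 := by
    rw [diagonal_pow, ← diagonal_one]; congr 1; ext i; fin_cases i <;> simp <;> grind
  have pa2 : diagonal ![z ^ 3, z ^ 2] ^ 5 = 1 := by
    rw [diagonal_pow, ← diagonal_one]; congr 1; ext i; fin_cases i <;> simp <;> grind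
  have pb3 : (γ • weilc3 z) ^ 4 = 1 := by
    rw [show 4 = 2 * 2 from rfl, pow_mul, pow_two (γ • _), smul_mul_smul_comm, q1, smul_smul, g2, one_smul, one_pow]
  have pb2 : (γ • weilc2 z) ^ 4 = 1 := by
    rw [show 4 = 2 * 2 from rfl, pow_mul, pow_two (γ • _), smul_mul_smul_comm, q2, smul_smul, mul_neg, g2, neg_smul,
      one_smul, neg_one_sq]
  obtain ⟨a3, ea3⟩ := IsUnit.of_pow_eq_one pa3 (by norm_num)
  obtain ⟨a2, ea2⟩ := IsUnit.of_pow_eq_one pa2 (by norm_num)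
  obtain ⟨b3, eb3⟩ := IsUnit.of_pow_eq_one pb3 (by norm_num)
  obtain ⟨b2, eb2⟩ := IsUnit.of_pow_eq_one pb2 (by norm_num)
  have lift : ∀ (k : P32 F) (m : Matrix (Fin 5) (Fin 5) F), m * weilC3 F = weilC3 F * k.1.1 →
      m * weilC2 F = weilC2 F * k.2.1 → ∃ U : GL (Fin 5) F, U.1 = m ∧ trG k1 k2 U = bd k := fun k m e e' => by
    refine ⟨trG k2 k1 (bd k), ?_, (trG k1 k2).apply_symm_apply _⟩
    rw [coe_trG, coe_bd, fromCols_mul_fromBlocks, Matrix.mul_zero, Matrix.mul_zero, add_zero, zero_add, ← e, ← e',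
      ← mul_fromCols, Matrix.mul_assoc, k1, Matrix.mul_one]
  obtain ⟨l1, l2, l3, l4, l5, l6⟩ := weil_blk h5
  obtain ⟨U, vU, eU⟩ := lift (a3, a2) _ (ea3 ▸ l1) (ea2 ▸ l2)
  obtain ⟨S, vS, eS⟩ := lift (b3, b2) (γ • weilF z) (by rw [eb3, Matrix.smul_mul, Matrix.mul_smul, l3])
    (by rw [eb2, Matrix.smul_mul, Matrix.mul_smul, l4])
  obtain ⟨Z, vZ, eZ⟩ := lift (1, -1) (weilZ F) (by simp [l5]) (by simp [l6])
  have vX := weil_tr h1 h1' ex
  have vY := weil_tr h1 h1' ey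
  have H1 := H.tr h1 h1'
  have eR : (closure {x, y}).map ((trG h1 h1').trans (trG k1 k2)).toMonoidHom =
      closure {trG k1 k2 (trG h1 h1' x), trG k1 k2 (trG h1 h1' y)} := by
    rw [MonoidHom.map_closure, Set.image_pair]; rfl
  refine ⟨(trG h1 h1').trans (trG k1 k2), closure {(a3, a2), (b3, b2)},
    fun g => (weil_sl k1 k2 _).trans (weil_sl h1 h1' g), eR ▸ ?_⟩
  generalize trG h1 h1' x = X at *
  generalize trG h1 h1' y = Y at *
  obtain ⟨r1, r2, r3, r4, r5, r6⟩ := weil_rel h5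
  obtain ⟨T, vT⟩ := IsUnit.of_pow_eq_one (n := 2) (a := diagonal ![(-1 : F), -1, 1, 1, 1]) (by
    rw [diagonal_pow, ← diagonal_one]; congr 1; ext i; fin_cases i <;> simp) (by norm_num)
  have ma : (a3, a2) ∈ closure ({(a3, a2), (b3, b2)} : Set (P32 F)) := subset_closure (by simp)
  have mb : (b3, b2) ∈ closure ({(a3, a2), (b3, b2)} : Set (P32 F)) := subset_closure (by simp)
  have ne : ∀ {i j : ℕ}, i < 5 → j < 5 → i ≠ j → z ^ i ≠ z ^ j := fun a b c d => c (pr.pow_inj a b d)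
  have s0 : (z + z ^ 4) * (z ^ 2 + z ^ 3) ≠ 0 := by
    rw [show (z + z ^ 4) * (z ^ 2 + z ^ 3) = -1 by grind]; simp
  refine weil_mdl (c := ζ ^ 2) (t := trG k1 k2 T) (H1.tr k1 k2)
    (Prod.ext (Units.ext (by simpa [ea3] using pa3)) (Units.ext (by simpa [ea2] using pa2)))
    (Prod.ext (Units.ext (by simpa [eb3] using pb3)) (Units.ext (by simpa [eb2] using pb2)))
    (Prod.ext (Units.ext ?_) (Units.ext ?_))
    (weil_top (d := ![1, z ^ 3, z ^ 2]) ?_ (ea3 ▸ coe_mem_env (mem_map_of_mem _ ma)) fun i j =>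
      ⟨_, coe_mem_env (mem_map_of_mem _ mb), ?_⟩)
    (weil_top (d := ![z ^ 3, z ^ 2]) ?_ (ea2 ▸ coe_mem_env (mem_map_of_mem _ ma)) fun i j =>
      ⟨_, coe_mem_env (mem_map_of_mem _ mb), ?_⟩) ?_ ?_ ?_ ?_ ?_ ?_ ((weil_sl k1 k2 T).2 (Units.ext ?_)) ?_
  · change (a3.1 * b3.1) ^ 3 = 1
    rw [ea3, eb3, Matrix.mul_smul, smul_pow, q3, smul_smul, g3, one_smul]
  · change (a2.1 * b2.1) ^ 3 = 1
    rw [ea2, eb2, Matrix.mul_smul, smul_pow, q4, smul_smul, g3, one_smul]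
  · have a := ne (i := 0) (j := 3) (by norm_num) (by norm_num) (by norm_num)
    have b := ne (i := 0) (j := 2) (by norm_num) (by norm_num) (by norm_num)
    have c := ne (i := 3) (j := 2) (by norm_num) (by norm_num) (by norm_num)
    rw [pow_zero] at a b
    intro i j
    fin_cases i <;> fin_cases j <;> simp [a, b, c, a.symm, b.symm, c.symm]
  · change b3.1 i j ≠ 0
    rw [eb3]
    fin_cases i <;> fin_cases j <;> simp [weilc3, g0, h2, left_ne_zero_of_mul s0, right_ne_zero_of_mul s0]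
  · have c := ne (i := 3) (j := 2) (by norm_num) (by norm_num) (by norm_num)
    intro i j
    fin_cases i <;> fin_cases j <;> simp [c, c.symm]
  · have a := ne (i := 1) (j := 4) (by norm_num) (by norm_num) (by norm_num)
    have b := ne (i := 2) (j := 3) (by norm_num) (by norm_num) (by norm_num)
    rw [pow_one] at a
    change b2.1 i j ≠ 0
    rw [eb2]
    fin_cases i <;> fin_cases j <;> simp [weilc2, g0, sub_eq_zero, a, b, a.symm]
  · rw [← eU, ← map_inv, ← map_mul, ← map_mul,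
      mul_inv_eq_iff_eq_mul.2 (show U * X = X * U from Units.ext (by simpa [vU, vX] using r1))]
  · rw [← eU, ← map_inv, ← map_mul, ← map_mul, ← weil_sc k1 k2, ← map_mul, ← map_mul,
      mul_inv_eq_iff_eq_mul.2 (show U * Y = sc _ (ζ ^ 2) * (X * Y) * U from
        Units.ext (by simpa [vU, vX, vY, coe_sc, hz, smul_pow] using r2))]
  · rw [← eS, ← map_inv, ← map_mul, ← map_mul, ← map_inv, show S * X * S⁻¹ = Y⁻¹ by
      rw [eq_comm, inv_eq_iff_mul_eq_one, ← mul_assoc, ← mul_assoc, mul_inv_eq_one]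
      exact Units.ext (by simp [vS, vX, vY, r3])]
  · rw [← eS, ← map_inv, ← map_mul, ← map_mul,
      mul_inv_eq_iff_eq_mul.2 (show S * Y = X * S from Units.ext (by simp [vS, vX, vY, r4]))]
  · rw [zz, ← eZ, ← map_inv, ← map_mul, ← map_mul, ← map_inv, show Z * X * Z⁻¹ = X⁻¹ by
      rw [eq_comm, inv_eq_iff_mul_eq_one, ← mul_assoc, ← mul_assoc, mul_inv_eq_one]
      exact Units.ext (by simp [vZ, vX, r5])]
  · rw [zz, ← eZ, ← map_inv, ← map_mul, ← map_mul, ← map_inv, show Z * Y * Z⁻¹ = Y⁻¹ by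
      rw [eq_comm, inv_eq_iff_mul_eq_one, ← mul_assoc, ← mul_assoc, mul_inv_eq_one]
      exact Units.ext (by simp [vZ, vY, r6])]
  · rw [GeneralLinearGroup.val_det_apply, vT]
    simp [Fin.prod_univ_five]
  · rw [← map_inv, ← map_inv, ← map_mul, ← map_mul, ← map_mul, ← map_pow, Ne, map_eq_one_iff _ (MulEquiv.injective _)]
    intro e
    have d : (T * Y * T⁻¹ * Y⁻¹).1 = diagonal ![(-1 : F), 1, -1, 1, 1] := by
      rw [mul_assoc, ← _root_.mul_inv_rev, Units.val_mul, Units.mul_inv_eq_iff_eq_mul, Units.val_mul, Units.val_mul, vT, vY]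
      ext i j
      fin_cases i <;> fin_cases j <;> simp [Y0, mul_apply, diagonal_apply]
    have := congrArg Units.val e
    rw [Units.val_pow_eq_pow_val, d, diagonal_pow] at this
    have := congrFun (congrFun this 0) 0
    simp at this
    exact h2 (by grind)

end CfsgLib.Wl5
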