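import Mathlib
import Cfsg.Agent.Lib.Wl5.Defs
import Cfsg.Agent.Lib.Dickson.Class
import Cfsg.Agent.Lib.Dickson.MinSimple
import Cfsg.Agent.Lib.Classical.SLBasic
import Cfsg.Agent.Lib.FT.OddOrder

/-! Subgroups of `GL₂(p)` containing a perfect group.  See `plans/WL5.md`. -/

set_option autoImplicit false
set_option linter.unusedSectionVars false

namespace CfsgLib.Wl5

open Matrix Subgroup Cfsg Cfsg.Geo CfsgLib.Asch
open scoped commutatorElement MatrixGroups

variable {F : Type*} [Field F] [Fintype F] {G K M : Subgroup (GL (Fin 2) F)}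

theorem d2_not_solv {A : Type*} [Group A] {L : Subgroup A} (hL : ⁅L, L⁆ = L) (h0 : L ≠ ⊥) :
    ¬ Group.IsSolvable L := fun _ => by
  have := (nontrivial_iff_ne_bot L).2 h0
  refine (Group.IsSolvable.commutator_lt_of_ne_bot (G := L) top_ne_bot).ne (map_injective L.subtype_injective ?_)
  rw [map_commutator, ← MonoidHom.range_eq_map, range_subtype, hL]

theorem d2_ker : (ProjGenLinGroup.mk : GL (Fin 2) F →* PGL(2, F)).ker = scalars (Fin 2) F := by
  rw [ProjGenLinGroup.ker_mk, GeneralLinearGroup.center_eq_range_scalar]; rfl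

theorem d2_range : (SpecialLinearGroup.toGL : SL(2, F) →* GL (Fin 2) F).range = specialLinear (Fin 2) F :=
  Classical.sl_range_toGL

theorem d2_perfect (h4 : 4 ≤ Fintype.card F) :
    ⁅specialLinear (Fin 2) F, specialLinear (Fin 2) F⁆ = specialLinear (Fin 2) F := by
  rw [← d2_range, MonoidHom.range_eq_map, ← map_commutator, ← _root_.commutator_def,
    Classical.sl_fin_commutator_eq_top 2 le_rfl fun _ => h4]

theorem d2_le (h4 : 4 ≤ Fintype.card F) (h : (Dickson.pslPGL F).range ≤ G.map ProjGenLinGroup.mk) :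
    specialLinear (Fin 2) F ≤ G := le_of_perfect (d2_perfect h4) (by
  rwa [← d2_ker, ← comap_map_eq, ← map_le_iff_le_comap, ← d2_range, MonoidHom.map_range,
    ← Dickson.range_pslPGL])

theorem neg_one_mem (h2 : (2 : F) ≠ 0) (hK : ⁅K, K⁆ = K) (h0 : K ≠ ⊥) : -1 ∈ K := by
  have := Fact.mk Nat.prime_two
  obtain ⟨⟨g, hg⟩, h⟩ := exists_prime_orderOf_dvd_card' (G := K) 2 (even_iff_two_dvd.1
    (Nat.not_odd_iff_even.1 fun h => d2_not_solv hK h0 (FT.odd_order_solvable h)))
  obtain ⟨e, e1⟩ := orderOf_eq_prime_iff.1 h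
  have hd : g ∈ specialLinear (Fin 2) F :=
    (commutator_le.2 fun a _ b _ => by simp [specialLinear, commutatorElement_def] :
      ⁅K, K⁆ ≤ specialLinear (Fin 2) F) (hK.symm ▸ hg)
  have d : g 0 0 * g 1 1 - g 0 1 * g 1 0 = 1 := by
    simpa [specialLinear, Units.ext_iff, det_fin_two] using hd
  have s : ∀ i j, g i 0 * g 0 j + g i 1 * g 1 j = (1 : Matrix (Fin 2) (Fin 2) F) i j := fun i j => by
    simpa [pow_two, mul_apply] using congrArg (fun x : K => (x : GL (Fin 2) F) i j) e
  have s0 := s 0 0; have s1 := s 0 1; have s2 := s 1 0; have s3 := s 1 1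
  simp only [one_apply_eq, ne_eq, zero_ne_one, one_ne_zero, not_false_eq_true, one_apply_ne] at s0 s1 s2 s3
  have t : g 0 0 + g 1 1 ≠ 0 := fun t => h2 (by linear_combination g 0 0 * t - s0 - d)
  have b : g 0 1 = 0 := mul_left_cancel₀ t (by linear_combination s1)
  have c : g 1 0 = 0 := mul_left_cancel₀ t (by linear_combination s2)
  have a : g 1 1 = g 0 0 := mul_left_cancel₀ t (by linear_combination s3 - s0)
  rcases mul_self_eq_one_iff.1 (by linear_combination s0 - g 1 0 * b : g 0 0 * g 0 0 = 1) with k | k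
  · exact absurd (Subtype.ext (Units.ext (by rw [eta_fin_two g.1, a, b, c, k]; exact one_fin_two.symm))) e1
  · rwa [show g = -1 from Units.ext (by
      rw [eta_fin_two g.1, a, b, c, k]; ext i j; fin_cases i <;> fin_cases j <;> simp)] at hg

theorem d2_eig {g : Matrix (Fin 2) (Fin 2) F} {v : Fin 2 → F} {a : F} (hv : v ≠ 0) (h : g *ᵥ v = a • v) :
    a ^ 2 - (g 0 0 + g 1 1) * a + g.det = 0 := by
  have := exists_mulVec_eq_zero_iff.1 ⟨v, hv, (by simp [sub_mulVec, smul_mulVec, h] : (g - a • 1) *ᵥ v = 0)⟩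
  simp [det_fin_two] at this ⊢
  linear_combination this

theorem d2_A5 : ∀ x : alternatingGroup (Fin 5), x ^ 2 * x ^ 2 = 1 → x ^ 2 = 1 := by
  decide +kernel

theorem dich2 (hp : (Fintype.card F).Prime) (h5 : 5 ≤ Fintype.card F) (hle : K ≤ G) (hK : ⁅K, K⁆ = K)
    (h0 : K ≠ ⊥) : (G ≤ K ⊔ scalars (Fin 2) F ∧ ∀ g ∈ G, ∀ (v w : Fin 2 → F) (a b : F), v ≠ 0 → w ≠ 0 →
      g.1 *ᵥ v = a • v → g.1 *ᵥ w = b • w → b ^ 2 ≠ -a ^ 2) ∨ specialLinear (Fin 2) F ≤ G := by
  have := Fact.mk hp
  have := charP_of_card_eq_prime (R := F) rfl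
  have h2 : (2 : F) ≠ 0 := fun e => by
    have := Nat.le_of_dvd two_pos ((CharP.cast_eq_zero_iff F (Fintype.card F) 2).1 (by exact_mod_cast e))
    omega
  have nK : ¬ Group.IsSolvable (K.map ProjGenLinGroup.mk) := d2_not_solv (by rw [← map_commutator, hK])
    fun e => h0 (by
      rw [Subgroup.map_eq_bot_iff, d2_ker] at e
      rw [← hK, commutator_eq_bot_iff_le_centralizer]
      exact e.trans (scalars_le_centralizer _))
  have cs : ∀ L : Subgroup PGL(2, F), ¬ Group.IsSolvable L →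
      Nonempty (L ≃* alternatingGroup (Fin 5)) ∨ (Dickson.pslPGL F).range ≤ L := fun L hL => by
    rcases Dickson.not_isSolvable_cases (Fintype.card F) hL with h | ⟨E, k, -, h⟩
    · exact .inl h.2.2
    obtain rfl := Dickson.subfield_eq_top_of_prime (by rwa [Nat.card_eq_fintype_card]) E
    rcases h with rfl | ⟨-, rfl⟩
    · simp [Dickson.pglSub_top]
    · simp [Dickson.pslSub_top]
  have hm := map_mono (f := ProjGenLinGroup.mk) hle
  obtain ⟨⟨φ⟩⟩ | h := cs (G.map ProjGenLinGroup.mk) fun _ =>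
    nK (Group.isSolvable_of_isSolvable_injective (inclusion_injective hm))
  swap
  · exact .inr (d2_le (by omega) h)
  obtain ⟨⟨ψ⟩⟩ | h := cs _ nK
  swap
  · exact .inr (d2_le (by omega) (h.trans hm))
  refine .inl ⟨?_, fun g hg v w a b hv hw ea eb e => ?_⟩
  · rw [← d2_ker, ← comap_map_eq, ← map_le_iff_le_comap]
    exact (eq_of_le_of_card_ge hm (Nat.card_congr (φ.trans ψ.symm).toEquiv).le).ge
  have a0 : a ≠ 0 := fun e => hv (by rw [← inv_mulVec_mulVec g v, ea, e, zero_smul, mulVec_zero])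
  have a2 : 2 * a ^ 2 ≠ 0 := mul_ne_zero h2 (pow_ne_zero 2 a0)
  have e1 : (g ^ 2).1 *ᵥ v = a ^ 2 • v := by simp [pow_two, ← mulVec_mulVec, ea, mulVec_smul, smul_smul]
  have e2 : (g ^ 2).1 *ᵥ w = (-a ^ 2) • w := by
    rw [← e]; simp [pow_two, ← mulVec_mulVec, eb, mulVec_smul, smul_smul]
  have t : (g ^ 2).1 0 0 + (g ^ 2).1 1 1 = 0 :=
    mul_left_cancel₀ a2 (by linear_combination d2_eig hw e2 - d2_eig hv e1)
  have s : g ^ 2 * g ^ 2 ∈ scalars (Fin 2) F := mem_scalars_of_eq_smul (c := -(g ^ 2).1.det) (by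
    generalize g ^ 2 = x at t
    ext i j
    fin_cases i <;> fin_cases j <;> simp [mul_apply, det_fin_two]
    exacts [by linear_combination x 0 0 * t, by linear_combination x 0 1 * t, by linear_combination x 1 0 * t,
      by linear_combination x 1 1 * t])
  rw [← d2_ker, MonoidHom.mem_ker, map_mul, map_pow] at s
  have k := d2_A5 (φ ⟨_, mem_map_of_mem _ hg⟩) (by
    rw [← map_pow, ← map_mul, map_eq_one_iff _ φ.injective]; exact Subtype.ext s)
  rw [← map_pow, map_eq_one_iff _ φ.injective, Subtype.ext_iff, coe_pow, ← map_pow, coe_one, ← MonoidHom.mem_ker,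
    d2_ker, mem_scalars_iff] at k
  obtain ⟨c, hc⟩ := k
  rw [hc, smul_mulVec, one_mulVec] at e1 e2
  exact a2 (by linear_combination smul_left_injective F hw e2 - smul_left_injective F hv e1)

theorem sl2_normal (h4 : 4 ≤ Fintype.card F) (hM : Nrm (specialLinear (Fin 2) F) M) :
    M ≤ scalars (Fin 2) F ∨ specialLinear (Fin 2) F ≤ M := by
  let N := M.comap (SpecialLinearGroup.toGL : SL(2, F) →* GL (Fin 2) F)
  have hN : N.Normal := ⟨fun x hx g => by
    rw [mem_comap, map_mul, map_mul, map_inv]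
    exact hM _ (d2_range.le ⟨g, rfl⟩) _ hx⟩
  have hs : IsSimpleGroup PSL(2, F) := Classical.psl_fin_isSimpleGroup 2 le_rfl fun _ => h4
  refine ((hN.map _ (QuotientGroup.mk'_surjective (center SL(2, F)))).eq_bot_or_eq_top).imp (fun h => ?_) fun h => ?_
  · rw [Subgroup.map_eq_bot_iff, QuotientGroup.ker_mk'] at h
    have k : ⁅⁅specialLinear (Fin 2) F, M⁆, specialLinear (Fin 2) F⁆ = ⊥ := by
      refine commutator_eq_bot_iff_le_centralizer.2 (le_trans (commutator_le.2 fun s hs m hm => ?_)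
        (scalars_le_centralizer _))
      obtain ⟨x, hx⟩ : ⁅s, m⁆ ∈ (SpecialLinearGroup.toGL : SL(2, F) →* GL (Fin 2) F).range := by
        simp [d2_range, specialLinear, commutatorElement_def]
      rw [← d2_ker, ProjGenLinGroup.ker_mk, ← hx, SpecialLinearGroup.toGL_mem_center_iff]
      exact h (by rw [mem_comap, hx]; exact M.mul_mem (hM s hs m hm) (M.inv_mem hm))
    have k2 := commutator_commutator_eq_bot_of_rotate k (by rwa [Subgroup.commutator_comm M])
    rw [d2_perfect h4, commutator_eq_bot_iff_le_centralizer] at k2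
    intro m hm
    obtain ⟨r, hr⟩ := mem_range_scalar_of_commute_transvectionStruct (M := m.1) fun t =>
      congrArg Units.val (k2 (d2_range.le ⟨⟨t.toMatrix, t.det⟩, rfl⟩) m hm).symm
    exact mem_scalars_of_eq_smul (c := r) (by rw [← hr]; simp [smul_one_eq_diagonal])
  · refine d2_le h4 ?_
    rintro _ ⟨x, rfl⟩
    obtain ⟨y, hy, rfl⟩ := h.ge (mem_top x)
    exact ⟨_, hy, rfl⟩

theorem sl2_le (hp : (Fintype.card F).Prime) {B u u' : GL (Fin 2) F} (hu : u ∈ M) (hu' : u' ∈ M)
    {a b : F} (ha : a ≠ 0) (hb : b ≠ 0) (e : u.1 * B.1 = B.1 * !![1, a; 0, 1])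
    (e' : u'.1 * B.1 = B.1 * !![1, 0; b, 1]) : specialLinear (Fin 2) F ≤ M := by
  let H := M.comap ((MulAut.conj B).toMonoidHom.comp (SpecialLinearGroup.toGL : SL(2, F) →* GL (Fin 2) F))
  have k : ∀ {i j : Fin 2} (hij : i ≠ j) (v : GL (Fin 2) F) (c : F), v ∈ M → c ≠ 0 →
      v.1 * B.1 = B.1 * (1 + single i j c) → ∀ d, SpecialLinearGroup.transvection hij d ∈ H :=
    fun {i j} hij v c hv hc ev d => by
    have := Fact.mk (Nat.card_eq_fintype_card (α := F) ▸ hp)
    let A : AddSubgroup F :=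
      { carrier := {d | SpecialLinearGroup.transvection hij d ∈ H}
        add_mem' := fun {x y} hx hy => by
          simpa [SpecialLinearGroup.transvection_add] using H.mul_mem hx hy
        zero_mem' := by simp
        neg_mem' := fun {x} hx => by simpa [SpecialLinearGroup.transvection_inv] using H.inv_mem hx }
    have hA : c ∈ A := by
      change B * _ * B⁻¹ ∈ M
      rwa [mul_inv_eq_iff_eq_mul.2 (Units.ext ev.symm : B * _ = v * B)]
    exact ((A.eq_bot_or_eq_top_of_prime_card).resolve_left fun h => hc (by simpa [h] using hA)).ge (AddSubgroup.mem_top d)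
  have hH : H = ⊤ := Classical.sl_eq_top_of_transvection_mem H fun i j hij c => by
    fin_cases i <;> fin_cases j
    · exact absurd rfl hij
    · exact k hij u a hu ha (by rw [e]; congr 1; ext i j; fin_cases i <;> fin_cases j <;> simp) c
    · exact k hij u' b hu' hb (by rw [e']; congr 1; ext i j; fin_cases i <;> fin_cases j <;> simp) c
    · exact absurd rfl hij
  intro s hs
  obtain ⟨x, hx⟩ : B⁻¹ * s * B ∈ (SpecialLinearGroup.toGL : SL(2, F) →* GL (Fin 2) F).range := by
    simpa [d2_range, specialLinear] using hs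
  simpa [H, hx, mul_assoc] using hH.ge (mem_top x)

end CfsgLib.Wl5
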