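import Mathlib

/-! A regular unipotent element of `GL₃` and its normaliser.  See `plans/WL5.md`. -/

set_option autoImplicit false

namespace CfsgLib.Wl5

open Matrix

variable {F : Type*} [Field F]

theorem j3_cube {p : ℕ} [Fact p.Prime] [CharP F p] {U : Matrix (Fin 3) (Fin 3) F} (h : U ^ p = 1) :
    (U - 1) ^ 3 = 0 := by
  have hn : IsNilpotent (U - 1) :=
    ⟨p, by rw [sub_pow_char_of_commute p (Commute.one_right U), h]; simp⟩
  have h1 := Matrix.aeval_self_charpoly (U - 1)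
  have h2 : (U - 1).charpoly = Polynomial.X ^ 3 := by
    have := (Matrix.isNilpotent_charpoly_sub_pow_of_isNilpotent hn).eq_zero
    simpa [sub_eq_zero] using this
  rw [h2] at h1
  simpa using h1

theorem j3_pow (h2 : (2 : F) ≠ 0) {N : Matrix (Fin 3) (Fin 3) F} (hN : N * N * N = 0) (k : ℕ) :
    (1 + N + (2 : F)⁻¹ • (N * N)) ^ k = 1 + (k : F) • N + ((k : F) ^ 2 * 2⁻¹) • (N * N) := by
  have h4 : N * N * (N * N) = 0 := by rw [← mul_assoc, hN, zero_mul]
  have h3 : N * (N * N) = 0 := by rw [← mul_assoc, hN]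
  induction k with
  | zero => simp
  | succ k ih =>
    rw [pow_succ, ih]
    simp only [add_mul, mul_add, one_mul, mul_one, smul_mul_assoc, mul_smul_comm, hN, h3, h4, smul_zero,
      add_zero, Nat.cast_succ]
    have : ((k : F) + 1) ^ 2 * 2⁻¹ = (k : F) ^ 2 * 2⁻¹ + k + 2⁻¹ := by field_simp; ring
    rw [this]; module

theorem j3_comm (h2 : (2 : F) ≠ 0) {N D : Matrix (Fin 3) (Fin 3) F} (hN : N * N * N = 0) {k : ℕ}
    (h : D * (1 + N + (2 : F)⁻¹ • (N * N)) = (1 + N + (2 : F)⁻¹ • (N * N)) ^ k * D) :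
    D * N = (k : F) • (N * D) := by
  have h4 : N * N * (N * N) = 0 := by rw [← mul_assoc, hN, zero_mul]
  have h3 : N * (N * N) = 0 := by rw [← mul_assoc, hN]
  rw [j3_pow h2 hN] at h
  obtain ⟨M, hM⟩ : ∃ M, M = N + (2 : F)⁻¹ • (N * N) := ⟨_, rfl⟩
  obtain ⟨A, hA⟩ : ∃ A, A = (k : F) • N + ((k : F) ^ 2 * 2⁻¹) • (N * N) := ⟨_, rfl⟩
  have e1 : D * M = A * D := by
    rw [add_assoc, add_assoc, ← hM, ← hA, mul_add, add_mul, mul_one, one_mul] at h
    exact add_left_cancel h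
  have e2 : M * M = N * N := by
    simp only [hM, add_mul, mul_add, smul_mul_assoc, mul_smul_comm, hN, h3, h4, smul_zero, add_zero]
  have e3 : A * A = ((k : F) ^ 2) • (N * N) := by
    simp only [hA, add_mul, mul_add, smul_mul_assoc, mul_smul_comm, hN, h3, h4, smul_zero, add_zero,
      smul_smul, pow_two]
  have e4 : D * (N * N) = ((k : F) ^ 2) • (N * N * D) := by
    rw [← smul_mul_assoc, ← e3, ← e2, ← mul_assoc, e1, mul_assoc, e1, ← mul_assoc]
  rw [hM, hA, mul_add, add_mul, mul_smul_comm, e4, smul_mul_assoc, smul_mul_assoc, smul_smul,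
    mul_comm (2 : F)⁻¹] at e1
  exact add_right_cancel e1

theorem j3_tri {N D B : Matrix (Fin 3) (Fin 3) F} (hN : N * N * N = 0) {v : Fin 3 → F}
    (hB : B = of fun i j => ![v, N *ᵥ v, (N * N) *ᵥ v] j i) (hd : B.det ≠ 0) {k : F}
    (h : D * N = k • (N * D)) : ∃ a b c : F, D * B = B * !![a, 0, 0; b, k * a, 0; c, k * b, k ^ 2 * a] := by
  have hB' : ∀ c : Fin 3 → F, B *ᵥ c = c 0 • v + c 1 • N *ᵥ v + c 2 • (N * N) *ᵥ v := fun c => by
    ext i; simp [hB, mulVec, dotProduct, Fin.sum_univ_three, mul_comm]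
  obtain ⟨c, hc⟩ : ∃ c, B *ᵥ c = D *ᵥ v :=
    ⟨B⁻¹ *ᵥ (D *ᵥ v), by rw [mulVec_mulVec, mul_nonsing_inv _ (Ne.isUnit hd), one_mulVec]⟩
  have h3 : N *ᵥ (N * N) *ᵥ v = 0 := by rw [mulVec_mulVec, ← mul_assoc, hN, zero_mulVec]
  have e1 : D *ᵥ N *ᵥ v = (k * c 0) • N *ᵥ v + (k * c 1) • (N * N) *ᵥ v := by
    rw [mulVec_mulVec, h, smul_mulVec, ← mulVec_mulVec, ← hc, hB', mulVec_add, mulVec_add, mulVec_smul,
      mulVec_smul, mulVec_smul, h3, mulVec_mulVec]
    module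
  have e2 : D *ᵥ (N * N) *ᵥ v = (k ^ 2 * c 0) • (N * N) *ᵥ v := by
    rw [mulVec_mulVec, ← mul_assoc, h, smul_mul_assoc, mul_assoc, smul_mulVec, ← mulVec_mulVec,
      ← mulVec_mulVec, e1, mulVec_add, mulVec_smul, mulVec_smul, h3, mulVec_mulVec]
    module
  refine ⟨c 0, c 1, c 2, ?_⟩
  have key : ∀ j, (D * B) *ᵥ Pi.single j 1 =
      (B * !![c 0, 0, 0; c 1, k * c 0, 0; c 2, k * c 1, k ^ 2 * c 0]) *ᵥ Pi.single j 1 := fun j => by
    rw [← mulVec_mulVec, ← mulVec_mulVec, hB', hB']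
    fin_cases j
    · simp [← hc, hB']
    · simp [e1]
    · simp [e2]
  ext i j
  simpa using congrFun (key j) i

theorem j3 {p : ℕ} [Fact p.Prime] [CharP F p] (h2 : (2 : F) ≠ 0) {U W D : Matrix (Fin 3) (Fin 3) F}
    (hU : U ^ p = 1) (h0 : (U - 1) * (U - 1) ≠ 0) {k k' : ℕ} (hk : (k' : F) = -1)
    (hW : W * U = U ^ k' * W) (hW2 : W * W = 1) (hW3 : W.det = -1) {e : Fin 3 → F} (he0 : e ≠ 0)
    (he : W *ᵥ e = -e) (hD : D * U = U ^ k * D) (hDW : D * W = W * D) :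
    ∃ α : F, D *ᵥ e = α • e ∧ D.det = α ^ 3 := by
  have hM : (U - 1) * (U - 1) * (U - 1) = 0 := by rw [← j3_cube hU, pow_three']
  obtain ⟨M, rfl⟩ : ∃ M, U = 1 + M := ⟨U - 1, by simp⟩
  simp only [add_sub_cancel_left] at hM h0
  have h3 : M * (M * M) = 0 := by rw [← mul_assoc, hM]
  have h4 : M * M * (M * M) = 0 := by rw [← mul_assoc, hM, zero_mul]
  obtain ⟨N, hN⟩ : ∃ N, N = M - (2 : F)⁻¹ • (M * M) := ⟨_, rfl⟩
  have e1 : N * N = M * M := by
    simp only [hN, sub_mul, mul_sub, smul_mul_assoc, mul_smul_comm, hM, h3, h4, smul_zero, sub_zero]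
  have e2 : N * N * N = 0 := by
    rw [e1]; simp only [hN, mul_sub, mul_smul_comm, hM, h4, smul_zero, sub_zero]
  have e3 : 1 + M = 1 + N + (2 : F)⁻¹ • (N * N) := by rw [e1, hN]; module
  rw [e3] at hW hD
  rw [← e1] at h0
  obtain ⟨v, hv⟩ : ∃ v, (N * N) *ᵥ v ≠ 0 := by
    by_contra hc
    push Not at hc
    exact h0 (by ext i j; simpa using congrFun (hc (Pi.single j 1)) i)
  obtain ⟨B, hB⟩ : ∃ B : Matrix (Fin 3) (Fin 3) F,
      B = of fun i j => ![v, N *ᵥ v, (N * N) *ᵥ v] j i := ⟨_, rfl⟩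
  have hB' : ∀ c : Fin 3 → F, B *ᵥ c = c 0 • v + c 1 • N *ᵥ v + c 2 • (N * N) *ᵥ v := fun c => by
    ext i; simp [hB, mulVec, dotProduct, Fin.sum_univ_three, mul_comm]
  have a3 : N *ᵥ (N * N) *ᵥ v = 0 := by rw [mulVec_mulVec, ← mul_assoc, e2, zero_mulVec]
  have hd : B.det ≠ 0 := fun hd => by
    obtain ⟨c, hc0, hc⟩ := exists_mulVec_eq_zero_iff.2 hd
    rw [hB'] at hc
    have b1 := congrArg (N *ᵥ ·) hc
    simp only [mulVec_add, mulVec_smul, a3, mulVec_mulVec, smul_zero, add_zero, mulVec_zero] at b1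
    have b2 := congrArg (N *ᵥ ·) b1
    simp only [mulVec_add, mulVec_smul, a3, mulVec_mulVec, smul_zero, add_zero, mulVec_zero] at b2
    have c0 := (smul_eq_zero.1 b2).resolve_right hv
    rw [c0, zero_smul, zero_add] at b1
    have c1 := (smul_eq_zero.1 b1).resolve_right hv
    rw [c0, c1, zero_smul, zero_smul, zero_add, zero_add] at hc
    have c2 := (smul_eq_zero.1 hc).resolve_right hv
    exact hc0 (by ext i; fin_cases i <;> simp [c0, c1, c2])
  obtain ⟨a, b, c, hL⟩ := j3_tri e2 hB hd (j3_comm h2 e2 hD)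
  obtain ⟨a', b', c', hL'⟩ := j3_tri e2 hB hd (j3_comm h2 e2 hW)
  rw [hk] at hL'
  have hinj : ∀ x y, B *ᵥ x = B *ᵥ y → x = y := fun x y h =>
    (mulVec_injective_iff_isUnit.2 ((isUnit_iff_isUnit_det B).2 (Ne.isUnit hd))) h
  have d1 : D.det = (k * a) ^ 3 := by
    have := congrArg det hL
    rw [det_mul, det_mul, mul_comm] at this
    rw [mul_left_cancel₀ hd this]; simp [det_fin_three]; ring
  have d2 : a' ^ 3 = 1 := by
    have := congrArg det hL'
    rw [det_mul, det_mul, mul_comm, hW3] at this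
    have := mul_left_cancel₀ hd this
    simp [det_fin_three] at this
    linear_combination -this
  have d3 : a' ^ 2 = 1 := by
    have h1 := congrArg (· *ᵥ Pi.single 2 1) hL'
    have h5 : W *ᵥ B *ᵥ Pi.single 2 1 = a' • B *ᵥ Pi.single 2 1 := by
      simp only [← mulVec_mulVec] at h1
      rw [h1, ← mulVec_smul]; congr 1; ext i; fin_cases i <;> simp
    have h6 : B *ᵥ Pi.single 2 1 = B *ᵥ (a' * a') • Pi.single 2 1 := by
      rw [mulVec_smul, mul_smul, ← h5, ← mulVec_smul, ← h5, mulVec_mulVec _ W W, hW2, one_mulVec]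
    have := congrFun (hinj _ _ h6) 2
    simp at this
    linear_combination -this
  have d4 : a' = 1 := by linear_combination d2 - a' * d3
  subst d4
  have key : ∀ x, W *ᵥ B *ᵥ x = -(B *ᵥ x) → x 0 = 0 ∧ 2 * x 2 = b' * x 1 := fun x hx => by
    rw [mulVec_mulVec, hL', ← mulVec_mulVec, ← mulVec_neg] at hx
    have h5 := hinj _ _ hx
    have h6 := congrFun h5 0
    have h7 := congrFun h5 2
    simp [mulVec, dotProduct, Fin.sum_univ_three] at h6 h7
    have h8 : x 0 = 0 := (mul_eq_zero.1 (show 2 * x 0 = 0 by linear_combination h6)).resolve_left h2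
    exact ⟨h8, by rw [h8] at h7; linear_combination h7⟩
  obtain ⟨x, rfl⟩ : ∃ x, B *ᵥ x = e :=
    ⟨B⁻¹ *ᵥ e, by rw [mulVec_mulVec, mul_nonsing_inv _ (Ne.isUnit hd), one_mulVec]⟩
  obtain ⟨x0, x2⟩ := key x he
  have hy : D *ᵥ B *ᵥ x = B *ᵥ (!![a, 0, 0; b, k * a, 0; c, k * b, k ^ 2 * a] *ᵥ x) := by
    rw [mulVec_mulVec, hL, mulVec_mulVec]
  obtain ⟨-, y2⟩ := key (!![a, 0, 0; b, k * a, 0; c, k * b, k ^ 2 * a] *ᵥ x) (by
    rw [← hy, mulVec_mulVec, ← hDW, ← mulVec_mulVec, he, mulVec_neg])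
  refine ⟨k * a, ?_, d1⟩
  rw [hy, ← mulVec_smul]
  congr 1
  simp [mulVec, dotProduct, Fin.sum_univ_three, x0] at y2
  ext i
  fin_cases i <;> simp [mulVec, dotProduct, Fin.sum_univ_three, x0]
  exact mul_left_cancel₀ h2 (by linear_combination y2 - (k * a) * x2)

/-- two matrices of square zero have a common non-zero kernel vector -/
theorem j3_ker {M M' : Matrix (Fin 3) (Fin 3) F} (h : M * M = 0) (h' : M' * M' = 0) :
    ∃ v, v ≠ 0 ∧ M *ᵥ v = 0 ∧ M' *ᵥ v = 0 := by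
  have key : ∀ M : Matrix (Fin 3) (Fin 3) F, M * M = 0 →
      2 ≤ Module.finrank F (LinearMap.ker (toLin' M)) := fun M h => by
    have h1 := LinearMap.finrank_range_add_finrank_ker (toLin' M)
    have h2 : LinearMap.range (toLin' M) ≤ LinearMap.ker (toLin' M) := by
      rintro _ ⟨v, rfl⟩; simp [h]
    have := Submodule.finrank_mono h2
    simp at h1; omega
  have h1 := Submodule.finrank_sup_add_finrank_inf_eq (LinearMap.ker (toLin' M)) (LinearMap.ker (toLin' M'))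
  have h2 := Submodule.finrank_le (LinearMap.ker (toLin' M) ⊔ LinearMap.ker (toLin' M'))
  have h3 := key M h
  have h4 := key M' h'
  simp only [Module.finrank_fin_fun] at h2
  obtain ⟨v, hv, h0⟩ := Submodule.exists_mem_ne_zero_of_ne_bot
    (p := LinearMap.ker (toLin' M) ⊓ LinearMap.ker (toLin' M')) fun hb => by
      rw [hb, finrank_bot] at h1; omega
  exact ⟨v, h0, by simpa using hv.1, by simpa using hv.2⟩

end CfsgLib.Wl5
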