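import Mathlib
import Cfsg.Agent.Lib.ClMax.SLForm

/-! `SO₅(q)` is maximal in `SL₅(q)`, `q` odd.  See `plans/WL5.md`. -/

set_option autoImplicit false

namespace CfsgLib.Wl5

open Cfsg Cfsg.Geo CfsgLib.ClMax Module CfsgLib.Forms

section

universe u v

variable {F : Type u} [Field F] {V : Type v} [AddCommGroup V] [Module F V]

theorem o5_comm {X : Subgroup (V ≃ₗ[F] V)} {t k : V ≃ₗ[F] V} (ht : t ∈ X) (hk : LinearEquiv.neg F * k ∈ X)
    {N : V →ₗ[F] V} (htN : ∀ x, t x = x + N x) (hNN : ∀ x, N (N x) = 0) (hkN : ∀ x, k (N x) = N x) {w : V}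
    {φ : Dual F V} (h : ∀ x, N (k x) = N x + φ x • w) : HasTv X w φ := by
  refine ⟨_, X.mul_mem (X.mul_mem (X.mul_mem (X.inv_mem ht) (X.inv_mem hk)) ht) hk, fun x => ?_⟩
  simp only [LinearEquiv.mul_apply]
  apply t.injective
  apply (LinearEquiv.neg F * k).injective
  have h1 : N (φ x • w) = 0 := by rw [← sub_eq_iff_eq_add'.2 (h x), map_sub, hNN, hNN, sub_zero]
  rw [apply_inv_apply, apply_inv_apply]
  simp only [LinearEquiv.mul_apply, LinearEquiv.neg_apply, map_neg, neg_inj]
  rw [htN, htN, map_add N, h1, add_zero, add_right_comm, add_assoc, ← h, map_add, hkN]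

variable [FiniteDimensional F V]

theorem o5_max {P : PQ (RingHom.id F) V} {d : ℕ} (h : HermLike P d) (h2 : (2 : F) ≠ 0)
    (hd : d + 2 ≤ finrank F V) (h5 : finrank F V = 5) :
    IsMaximalIn (SLV F V) (simV (fun x y => P.B x y) ⊓ SLV F V) := by
  classical
  obtain ⟨y, -, hy⟩ := h.exists_nonsing h2 ∅ (by simp; omega)
  refine h.isMaximalIn_of_tv (by omega) hy fun X hX g hg hg' => ?_
  have hsym : ∀ x y, P.B x y = P.B y x := fun x y => h.conj x y
  have hN0 : ∀ x, P.B x x = 0 → P.N x = 0 := fun x hx =>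
    (mul_eq_zero.1 ((h.two_N x).trans hx)).resolve_left h2
  have ho := h.orbit_orth h2 (by omega) (by omega)
  -- a transvection suffices
  suffices ∃ w u, w ≠ 0 ∧ u ≠ 0 ∧ P.B u w = 0 ∧ HasTv X w (P.B u) by
    obtain ⟨w, u, hw, hu, huw, ht⟩ := this
    by_cases hs : u ∈ Submodule.span F {w}
    swap
    · exact h.SLV_le_of_tv ho hX hw huw hs ht
    obtain ⟨c, rfl⟩ := Submodule.mem_span_singleton.1 hs
    have hc : c ≠ 0 := by rintro rfl; simp at hu
    have hww : P.B w w = 0 := by simpa [hc] using huw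
    obtain ⟨z, hz, hwz, hzw⟩ := h.exists_sing_perp {w} {w} (by simp; omega)
    replace hwz := hwz w (by simp)
    replace hzw : z ∉ Submodule.span F {w} := by simpa using hzw
    obtain ⟨b, hb, hbz⟩ := P.exists_dual_vec h.nondeg (Submodule.span F {z}) (u := w) (fun h' => by
      obtain ⟨t, rfl⟩ := Submodule.mem_span_singleton.1 h'
      exact hzw ((Submodule.smul_mem_iff _ (by rintro rfl; simp at hw)).1
        (Submodule.mem_span_singleton_self _)))
    replace hbz := hbz z (Submodule.mem_span_singleton_self z)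
    have key : ∀ e : F, HasTv X (w + e • z) (P.B (c • (w + e • z))) := fun e => by
      obtain ⟨k, h1, h3, h4⟩ := h.exists_eichler (z := z) (a := e • b) hz (by simp [hsym z, hbz])
      have h5 : k w = w + e • z := by simp [h4, hb, hsym z w, hwz]
      rw [← h5, ← map_smul]
      exact ht.conj' (hX k h1 h3) (h1.B_eq _)
    obtain ⟨k₁, a1, b1⟩ := key 1
    obtain ⟨k₂, a2, b2⟩ := (key (-1)).neg_right (by simp [hww, hz, hwz, hsym z w])
    obtain ⟨k, h1, h3, h4⟩ := h.exists_eichler (z := w) (a := (2 * c) • z) hww (by simp [hwz])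
    refine h.SLV_le_of_tv ho hX (u := (2 * 2 * c) • z) hw (by simp [hsym z w, hwz])
      ((Submodule.smul_mem_iff _ (by simp [h2, hc])).not.2 hzw)
      ⟨k₁ * k₂ * k, X.mul_mem (X.mul_mem a1 a2) (hX k h1 h3), fun x => ?_⟩
    simp only [LinearEquiv.mul_apply, b1, b2, h4, hN0 ((2 * c) • z) (by simp [hz]), map_add,
      map_sub, map_smul, LinearMap.neg_apply, LinearMap.add_apply, LinearMap.smul_apply, hww, hz,
      hwz, hsym z w, smul_eq_mul, RingHom.id_apply]
    module
  obtain ⟨a, ha⟩ := h.exists_dualMap g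
  obtain ⟨v, hv, hav⟩ := h.exists_sing_of_not_sim (by omega) hg' ha
  obtain ⟨w, hw, hvw, hw', hw''⟩ : ∃ w, P.B w w = 0 ∧ P.B v w = 0 ∧ w ∉ Submodule.span F {v} ∧
      a v ∉ Submodule.span F {g v, g w} := by
    obtain ⟨w, hw, hvw, hw'⟩ := h.exists_sing_perp {v} {v} (by simp; omega)
    replace hvw := hvw v (by simp)
    replace hw' : w ∉ Submodule.span F {v} := by simpa using hw'
    by_cases h3 : a v ∈ Submodule.span F {g v, g w}
    swap
    · exact ⟨w, hw, hvw, hw', h3⟩
    obtain ⟨b, hb, hbv⟩ := P.exists_dual_vec h.nondeg _ hw'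
    replace hbv := hbv v (Submodule.mem_span_singleton_self v)
    have h4 : P.B (b - P.N b • w) w = 1 := by simp [hb, hw]
    refine ⟨b - P.N b • w, by simp [hb, hw, hsym w b]; linear_combination -h.two_N b,
      by simp [hsym v b, hbv, hvw], fun h' => ?_, fun h' => ?_⟩
    · obtain ⟨t, ht⟩ := Submodule.mem_span_singleton.1 h'
      simp [← ht, hvw] at h4
    · obtain ⟨s, t, hst⟩ := Submodule.mem_span_pair.1 h3
      obtain ⟨s', t', hst'⟩ := Submodule.mem_span_pair.1 h'
      have h6 := hst'.trans hst.symm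
      simp only [← map_smul, ← map_add, g.injective.eq_iff] at h6
      have h7 := congrArg (fun x => P.B x w) h6
      simp only [P.B_add_left, P.B_smul_left, h4, hvw, hw, RingHom.id_apply, mul_zero, mul_one, add_zero,
        zero_add] at h7
      exact hav (Submodule.mem_span_singleton.2 ⟨s', by simpa [h7] using hst'⟩)
  obtain ⟨y₀, hy₀, hy₁⟩ := P.exists_dual_vec h.nondeg _ hw''
  have e1 := hy₁ (g v) (Submodule.subset_span (by simp))
  have e2 := hy₁ (g w) (Submodule.subset_span (by simp))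
  obtain ⟨E, h1, h3, h4⟩ := h.exists_eichler hv hvw
  let N : V →ₗ[F] V := (P.B (a w)).smulRight (g v) - (P.B (a v)).smulRight (g w)
  have hN : ∀ x, N x = P.B (a w) x • g v - P.B (a v) x • g w := fun x => rfl
  have htX := X.mul_mem (X.mul_mem hg (hX E h1 h3)) (X.inv_mem hg)
  have htN : ∀ x, (g * E * g⁻¹) x = x + N x := fun x => by
    obtain ⟨x, rfl⟩ := g.surjective x
    simp only [LinearEquiv.mul_apply, inv_apply_apply, h4, hN, ha, hN0 w hw, map_sub, map_add,
      map_smul, map_zero, zero_mul, sub_zero, add_sub_assoc]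
  have hNN : ∀ x, N (N x) = 0 := fun x => by
    rw [hN (N x), hN x]; simp [ha, hv, hw, hvw, hsym w v]
  have hNy : N y₀ ≠ 0 := fun h0 => by
    rw [hN, hsym (a v), hy₀, one_smul, sub_eq_zero, ← map_smul, g.injective.eq_iff] at h0
    exact hw' (Submodule.mem_span_singleton.2 ⟨_, h0⟩)
  obtain ⟨y, y1, y2, y3, y4⟩ : ∃ y, P.B y y ≠ 0 ∧ P.B y (g v) = 0 ∧ P.B y (g w) = 0 ∧ N y ≠ 0 := by
    obtain ⟨n, n1, n2⟩ := h.exists_nonsing h2 {g v, g w} (by
      have := Finset.card_le_two (a := g v) (b := g w); omega)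
    have n3 := (hsym _ _).trans (n1 (g v) (by simp))
    have n4 := (hsym _ _).trans (n1 (g w) (by simp))
    by_cases hyy : P.B y₀ y₀ = 0
    swap
    · exact ⟨y₀, hyy, e1, e2, hNy⟩
    by_cases hn : N n = 0
    swap
    · exact ⟨n, n2, n3, n4, hn⟩
    by_cases hc : P.B (y₀ + n) (y₀ + n) = 0
    · refine ⟨y₀ - n, fun h' => n2 (mul_left_cancel₀ h2 ?_), by simp [e1, n3], by simp [e2, n4], by simpa [hn]⟩
      simp only [map_add, map_sub, LinearMap.add_apply, LinearMap.sub_apply, hyy] at hc h'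
      linear_combination hc + h'
    · exact ⟨y₀ + n, hc, by simp [e1, n3], by simp [e2, n4], by simpa [hn]⟩
  obtain ⟨r, r1, r2, r3⟩ := h.exists_qrefl (x := y) (c := -2 / P.B y y) (by
    simp only [RingHom.id_apply]; field_simp; ring)
  have hk : LinearEquiv.neg F * r ∈ X := hX _ ⟨fun x x' => by simp [r1.B_eq], fun x => by
    rw [h.mem_Λ]
    have := h.two_N x
    have := h.two_N (-r x)
    simp only [LinearEquiv.mul_apply, LinearEquiv.neg_apply, map_neg, LinearMap.neg_apply, neg_neg, r1.B_eq,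
      RingHom.id_apply] at this ⊢
    grind⟩ (mem_SLV.2 (by
      rw [show ((LinearEquiv.neg F * r : V ≃ₗ[F] V) : V →ₗ[F] V) = (-1 : F) • (r : V →ₗ[F] V) from
        LinearMap.ext fun x => by simp, LinearMap.det_smul, r2, div_mul_cancel₀ _ y1, h5]
      ring))
  refine ⟨N y, (-2 / P.B y y) • y, y4, smul_ne_zero (by simp [h2, y1]) (by
    rintro rfl; simp at y1), by simp [hN, y2, y3], o5_comm htX hk htN hNN (fun x => ?_) fun x => ?_⟩
  · simp [r3, hN x, y2, y3]
  · simp [r3]

end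

variable {F : Type*} [Field F] [Finite F]

theorem o5_symm {f : (Fin 5 → F) → (Fin 5 → F) → F} (hf : IsSymmetricForm f)
    (h2 : (2 : F) ≠ 0) :
    IsMaximalIn (specialLinear (Fin 5) F) (similarityGroup f ⊓ specialLinear (Fin 5) F) := by
  let P := ofHermθ (σ := RingHom.id F) (fun _ => rfl) 2⁻¹ (by simp; field_simp; ring)
    (bilinOf hf.bilinear) ⟨fun u v => hf.symm u v⟩
  have h : HermLike P 3 := by
    refine ⟨(bilinOf_nondegenerate hf.bilinear hf.nondegenerate).1, rfl, fun _ => Iff.rfl, fun W hW => ?_⟩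
    obtain ⟨z, h0, hz⟩ := OrthE.exists_singular
      ((bilinOf hf.bilinear).toQuadraticMap.comp W.subtype) hW
    exact ⟨z, z.2, fun h => h0 (Subtype.ext h), hz⟩
  rw [specialLinear_eq, similarityGroup_eq, ← Subgroup.comap_inf]
  exact isMaximalIn_comap _ (o5_max h h2 (by simp) (by simp))

theorem sl5_quad {Q : (Fin 5 → F) → F} (hQ : IsNondegenerateQuadraticForm Q) (h2 : (2 : F) ≠ 0) :
    IsMaximalIn (specialLinear (Fin 5) F) (quadSimilarityGroup Q ⊓ specialLinear (Fin 5) F) := by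
  convert o5_symm
    ⟨hQ.polar_bilinear, QuadraticMap.polar_comm Q, hQ.nondegenerate⟩ h2 using 2
  have hs : ∀ v, QuadraticMap.polar Q v v = 2 * Q v := fun v => by
    rw [QuadraticMap.polar, ← two_smul F v, hQ.smul]; ring
  ext g
  constructor
  · rintro ⟨c, hc⟩
    exact ⟨c, fun u v => by simp only [QuadraticMap.polar, ← Matrix.mulVec_add, hc]; ring⟩
  · rintro ⟨c, hc⟩
    exact ⟨c, fun v => mul_left_cancel₀ h2 (by rw [← hs, hc, hs]; ring)⟩

end CfsgLib.Wl5
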