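import Mathlib
import Cfsg.Agent.Lib.Wl5.Defs
import Cfsg.Agent.Lib.TvGen.Grp
import Cfsg.Agent.Lib.ClMax.Basic

/-! McLaughlin over a prime field, odd dimension, matrix form.  See `plans/WL5.md`. -/

set_option autoImplicit false

namespace CfsgLib.Wl5

open Matrix Subgroup Cfsg Cfsg.Geo CfsgLib.Asch
open scoped commutatorElement

variable {F : Type*} [Field F] [Fintype F] {ι : Type} [Fintype ι] [DecidableEq ι]

section TvAux

open CfsgLib.TvGen Module

variable {V : Type*} [AddCommGroup V] [Module F V]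

theorem tv_exists_nat (hp : (Fintype.card F).Prime) (c : F) : ∃ n : ℕ, (n : F) = c := by
  have := Fact.mk hp
  obtain ⟨a, rfl⟩ := (ZMod.ringEquivOfPrime F hp rfl).surjective c
  exact ⟨a.val, by rw [← map_natCast (ZMod.ringEquivOfPrime F hp rfl), ZMod.natCast_zmod_val]⟩

theorem tv_smr (hp : (Fintype.card F).Prime) {H : Subgroup (V ≃ₗ[F] V)} {v : V} {φ : Dual F V}
    (c : F) (h : Tv H v φ) : Tv H v (c • φ) := by
  obtain ⟨h0, g, hg, hg'⟩ := h
  obtain ⟨n, rfl⟩ := tv_exists_nat hp c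
  refine ⟨by simp [h0], g ^ n, H.pow_mem hg _, fun x => ?_⟩
  rw [tv_pow_apply h0 hg']
  simp

theorem tv_ts (hp : (Fintype.card F).Prime) (h2 : (2 : F) ≠ 0) (H : Subgroup (V ≃ₗ[F] V)) :
    TS (LinearMap.id : Dual F V →ₗ[F] V →ₗ[F] F) (Tv H) where
  inc := fun h => h.1
  sml := by
    intro v φ c h
    obtain ⟨-, g, hg, hg'⟩ := tv_smr hp c h
    exact ⟨by simp [h.1], g, hg, fun x => by rw [hg']; simp [smul_smul, mul_comm]⟩
  smr := fun c h => tv_smr hp c h
  adl := by
    rintro v w φ ⟨h0, g, hg, hg'⟩ ⟨h1, k, hk, hk'⟩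
    refine ⟨by simp [h0, h1], g * k, H.mul_mem hg hk, fun x => ?_⟩
    rw [LinearEquiv.mul_apply, hk', hg']
    simp only [map_add, map_smul, h1, smul_zero, add_zero, smul_add]
    abel
  adr := by
    rintro v φ ψ ⟨h0, g, hg, hg'⟩ ⟨h1, k, hk, hk'⟩
    refine ⟨by simp [h0, h1], g * k, H.mul_mem hg hk, fun x => ?_⟩
    rw [LinearEquiv.mul_apply, hk', hg']
    simp only [map_add, map_smul, h0, smul_zero, add_zero, LinearMap.add_apply, add_smul]
    abel
  conj := by
    rintro y η u χ h1 ⟨h0, g, hg, hg'⟩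
    have := h1.conj_mem hg
    rw [hg'] at this
    have e : η - η u • χ = η ∘ₗ (g⁻¹ : V ≃ₗ[F] V) := by
      ext x
      show _ = η (g⁻¹ x)
      rw [tv_inv_apply h0 hg']
      simp [mul_comm]
    rw [← e] at this
    exact this
  heis := by
    intro x φ w ψ y η h1 h2' h3 a1 a2 a3 a4 a5 a6
    simp only [LinearMap.id_apply] at a1 a2 a3 a4 a5 a6
    obtain ⟨b1, g1, hg1, e1⟩ := h1
    obtain ⟨b2, g2, hg2, e2⟩ := h2'
    obtain ⟨b3, g3, hg3, e3⟩ := h3
    have e3' := tv_inv_apply b3 e3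
    have hq : ∀ v, (g1 * g2) v = v + φ v • x + ψ v • w := by
      intro v
      rw [LinearEquiv.mul_apply, e2, e1]
      simp only [map_add, map_smul, a1, smul_zero, add_zero]
      abel
    have hq' : ∀ v, (g3 * (g1 * g2) * g3⁻¹) v =
        v + (φ v - η v) • (x + y) + (ψ v - η v) • (w - y) := by
      intro v
      rw [LinearEquiv.mul_apply, LinearEquiv.mul_apply, hq, e3', e3]
      simp only [map_add, map_sub, map_smul, a3, a4, a5, a6, b3, smul_eq_mul]
      module
    set q := g1 * g2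
    set q' := g3 * q * g3⁻¹
    have hqH : q ∈ H := H.mul_mem hg1 hg2
    have hqH' : q' ∈ H := H.mul_mem (H.mul_mem hg3 hqH) (H.inv_mem hg3)
    clear_value q q'
    have key : Tv H (x + w) ((2 : F) • (φ - ψ)) := by
      refine ⟨by simp [a1, a2, b1, b2], q * q' * (q' * q)⁻¹,
        H.mul_mem (H.mul_mem hqH hqH') (H.inv_mem (H.mul_mem hqH' hqH)), fun v => ?_⟩
      obtain ⟨v, rfl⟩ := (q' * q).surjective v
      rw [LinearEquiv.mul_apply, ← LinearEquiv.mul_apply (q' * q)⁻¹, inv_mul_cancel,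
        LinearEquiv.coe_one, id, LinearEquiv.mul_apply, LinearEquiv.mul_apply]
      simp only [hq, hq']
      simp only [map_add, map_sub, map_smul, a1, a2, a3, a4, a5, a6, b1, b2, smul_eq_mul,
        LinearMap.smul_apply, LinearMap.sub_apply]
      module
    have := tv_smr hp (2 : F)⁻¹ key
    rwa [smul_smul, inv_mul_cancel₀ h2, one_smul] at this

omit [Fintype F] in
/-- A system without proper invariant subspaces is irreducible. -/
theorem tv_irr [FiniteDimensional F V] {S : V → Dual F V → Prop} (h2 : (2 : F) ≠ 0)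
    (hts : TS (LinearMap.id : Dual F V →ₗ[F] V →ₗ[F] F) S) (zl : ∀ φ, S 0 φ) (zr : ∀ v, S v 0)
    (hirr : ∀ W : Submodule F V, (∀ u χ, Nd S u χ → ∀ x ∈ W, χ x ≠ 0 → u ∈ W) → W = ⊥ ∨ W = ⊤)
    {v0 : V} {φ0 : Dual F V} (h0 : Nd S v0 φ0) : Irr S := by
  have hcen : Submodule.span F {y | ∃ η, Nd S y η} = ⊤ := by
    refine (hirr (Submodule.span F {y | ∃ η, Nd S y η})
      fun u χ hu _ _ _ => Submodule.subset_span ⟨χ, hu⟩).resolve_left fun h => ?_
    have : v0 ∈ Submodule.span F {y | ∃ η, Nd S y η} := Submodule.subset_span ⟨φ0, h0⟩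
    rw [h, Submodule.mem_bot] at this
    exact h0.2.1 this
  have hker : ∀ x : V, (∀ y η, Nd S y η → η x = 0) → x = 0 := by
    intro x hx
    let C : Submodule F V := ⨅ η ∈ {η | ∃ y, Nd S y η}, LinearMap.ker η
    have hC : ∀ x, x ∈ C ↔ ∀ y η, Nd S y η → η x = 0 := by
      intro x
      simp only [C, Submodule.mem_iInf, LinearMap.mem_ker, Set.mem_ofPred_eq]
      exact ⟨fun a y η b => a η ⟨y, b⟩, fun a η ⟨y, b⟩ => a y η b⟩
    rcases hirr C (fun u χ hu x hx hne => absurd ((hC x).1 hx u χ hu) hne) with h | h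
    · have := (hC x).2 hx
      rwa [h, Submodule.mem_bot] at this
    · exact absurd (LinearMap.ext fun z => (hC z).1 (h ▸ Submodule.mem_top) v0 φ0 h0) h0.2.2
  have hinn : ∀ φ : Dual F V, φ ≠ 0 → ∃ y η, Nd S y η ∧ φ y ≠ 0 := by
    intro φ hφ
    by_contra hc
    push Not at hc
    have : Submodule.span F {y | ∃ η, Nd S y η} ≤ LinearMap.ker φ :=
      Submodule.span_le.2 fun y ⟨η, hy⟩ => hc y η hy
    rw [hcen] at this
    exact hφ (LinearMap.ext fun z => this Submodule.mem_top)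
  have hcon : Con (LinearMap.id : Dual F V →ₗ[F] V →ₗ[F] F) S := by
    refine ⟨?_, ?_, fun {v φ} hv => hinn φ hv.2.2⟩
    · intro v φ w ψ hv hw
      let M : Submodule F V := Submodule.span F {w | ∃ ψ, Nd S w ψ ∧
        Relation.ReflTransGen (Arr (LinearMap.id : Dual F V →ₗ[F] V →ₗ[F] F) S) (v, φ) (w, ψ)}
      have key : ∀ u χ, Nd S u χ → ∀ x ∈ M, χ x ≠ 0 →
          Relation.ReflTransGen (Arr (LinearMap.id : Dual F V →ₗ[F] V →ₗ[F] F) S) (v, φ)
            (u, χ) := by
        intro u χ hu x hx hne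
        by_contra hc
        apply hne
        have : M ≤ LinearMap.ker χ := by
          refine Submodule.span_le.2 ?_
          rintro w ⟨ψ, hw, hr⟩
          by_contra h0
          exact hc (hr.tail ⟨hw, hu, h0⟩)
        exact this hx
      rcases hirr M (fun u χ hu x hx hne => Submodule.subset_span ⟨χ, hu, key u χ hu x hx hne⟩)
        with h | h
      · have : v ∈ M := Submodule.subset_span ⟨φ, hv, Relation.ReflTransGen.refl⟩
        rw [h, Submodule.mem_bot] at this
        exact absurd this hv.2.1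
      · obtain ⟨y, -, -, hy⟩ := hinn ψ hw.2.2
        exact key w ψ hw y (h ▸ Submodule.mem_top) hy
    · intro v φ hv
      by_contra hc
      push Not at hc
      exact hv.2.1 (hker v hc)
  have hax : Submodule.span F {η | ∃ y, Nd S y η} = ⊤ := by
    rw [← Subspace.dualCoannihilator_dualAnnihilator_eq
      (W := Submodule.span F {η | ∃ y, Nd S y η})]
    have : (Submodule.span F {η | ∃ y, Nd S y η}).dualCoannihilator = ⊥ := by
      rw [eq_bot_iff]
      intro x hx
      rw [Submodule.mem_dualCoannihilator] at hx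
      exact hker x fun y η hy => hx η (Submodule.subset_span ⟨y, hy⟩)
    rw [this, Submodule.dualAnnihilator_bot]
  have cen : ∀ v, v ≠ 0 → ∃ φ, Nd S v φ := fun v hv =>
    hcon.centre_of_mem_span hts h2 (hcen ▸ Submodule.mem_top) hv
  have ax : ∀ φ, φ ≠ 0 → ∃ v, Nd S v φ := fun φ hφ =>
    hcon.axis_of_mem_span hts h2 (hax ▸ Submodule.mem_top) hφ
  refine ⟨hts, zl, zr, cen, ax, fun w χ hw hχ => ?_⟩
  obtain ⟨ψ, hψ⟩ := cen w hw
  obtain ⟨u, hu⟩ := ax χ hχ
  obtain ⟨y, η, a, b, c⟩ := hcon.exists_opp hts h2 hψ hu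
  exact ⟨y, η, a.1, b, c⟩

omit [Fintype F] in
theorem tv_not_alt (h2 : (2 : F) ≠ 0) (ho : Odd (Fintype.card ι))
    (B : LinearMap.BilinForm F (ι → F)) (hA : B.IsAlt) (hB : B.Nondegenerate) : False := by
  have h1 := (LinearMap.BilinForm.nondegenerate_iff_det_ne_zero (Pi.basisFun F ι)).1 hB
  set M := LinearMap.BilinForm.toMatrix (Pi.basisFun F ι) B with hM
  have h3 : Mᵀ = -M := by
    ext i j
    simp only [hM, transpose_apply, Matrix.neg_apply, LinearMap.BilinForm.toMatrix_apply]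
    exact (hA.neg_eq _ _).symm
  have h4 := congrArg Matrix.det h3
  rw [det_transpose, det_neg, ho.neg_one_pow] at h4
  have : 2 * M.det = 0 := by linear_combination h4
  exact h1 ((mul_eq_zero.1 this).resolve_left h2)

end TvAux

theorem sl_le_of_tv (hp : (Fintype.card F).Prime) (h2 : (2 : F) ≠ 0) (ho : Odd (Fintype.card ι))
    {H : Subgroup (GL ι F)} (hE : ∀ N : Subgroup (GL ι F), N ≤ H → Nrm H N → N ≤ scalars ι F ∨ env N = ⊤)
    (ht : ¬ NoT H) : specialLinear ι F ≤ H := by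
  classical
  set G := H.map (ClMax.toEquiv (ι := ι) (F := F)).toMonoidHom with hG
  have hmem : ∀ g : GL ι F, ClMax.toEquiv g ∈ G ↔ g ∈ H := fun g =>
    ⟨fun ⟨k, hk, e⟩ => ClMax.toEquiv.injective e ▸ hk, fun hg => ⟨g, hg, rfl⟩⟩
  let A : Set (GL ι F) :=
    {g | ∃ v φ, TvGen.Nd (TvGen.Tv G) v φ ∧ ∀ x, ClMax.toEquiv g x = x + φ x • v}
  have hAH : ∀ g ∈ A, g ∈ H := by
    rintro g ⟨v, φ, ⟨⟨-, k, hk, hk'⟩, -⟩, hg⟩
    have : ClMax.toEquiv g = k := LinearEquiv.ext fun x => by rw [hg, hk']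
    exact (hmem g).1 (this ▸ hk)
  have hex : ∃ g, g ∈ A := by
    unfold NoT at ht
    push Not at ht
    obtain ⟨g, hg, v, φ, h0, e, hne⟩ := ht
    let ψ : Module.Dual F (ι → F) := (Matrix.toLinearMap₂' F (1 : Matrix ι ι F)) φ
    have hψ : ∀ x, ψ x = φ ⬝ᵥ x := fun x => by
      simp [ψ, Matrix.toLinearMap₂'_apply']
    have hx : ∀ x, ClMax.toEquiv g x = x + ψ x • v := fun x => by
      rw [ClMax.toEquiv_apply, e, add_mulVec, one_mulVec, vecMulVec_mulVec, hψ]
      simp
    have hne' : ¬ ∀ x, ψ x • v = 0 := fun h => hne (ClMax.toEquiv.injective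
      (LinearEquiv.ext fun x => by rw [hx, h, map_one]; simp))
    refine ⟨g, v, ψ, ⟨⟨by rw [hψ, h0], _, (hmem g).2 hg, hx⟩, ?_, ?_⟩, hx⟩
    · rintro rfl; exact hne' fun x => by simp
    · intro h; exact hne' fun x => by simp [h]
  have hN : Nrm H (closure A) := by
    intro h hh x hx
    have : (closure A).map (MulAut.conj h).toMonoidHom ≤ closure A := by
      rw [MonoidHom.map_closure]
      refine closure_mono ?_
      rintro _ ⟨g, ⟨v, φ, hv, hg⟩, rfl⟩
      refine ⟨ClMax.toEquiv h v, φ ∘ₗ ((ClMax.toEquiv h)⁻¹ : (ι → F) ≃ₗ[F] (ι → F)),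
        ⟨hv.1.conj_mem ((hmem h).2 hh), ?_, ?_⟩, fun x => ?_⟩
      · exact fun e => hv.2.1 ((ClMax.toEquiv h).map_eq_zero_iff.1 e)
      · intro e
        refine hv.2.2 (LinearMap.ext fun z => ?_)
        have := LinearMap.congr_fun e (ClMax.toEquiv h z)
        have e2 : (ClMax.toEquiv h)⁻¹ (ClMax.toEquiv h z) = z := ClMax.inv_apply_apply _ _
        rw [← e2]
        exact this
      · show ClMax.toEquiv (h * g * h⁻¹) x = _
        rw [map_mul, map_mul, map_inv, LinearEquiv.mul_apply, LinearEquiv.mul_apply, hg, map_add,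
          map_smul, ClMax.apply_inv_apply]
        rfl
    exact this ⟨x, hx, rfl⟩
  obtain ⟨g0, v0, φ0, hv0, hg0⟩ := hex
  have henv : env (closure A) = ⊤ := by
    refine (hE _ ((closure_le _).2 hAH) hN).resolve_left fun hs => ?_
    obtain ⟨c, hc⟩ := (mem_scalars_iff g0).1 (hs (subset_closure ⟨v0, φ0, hv0, hg0⟩))
    have h1 : ∀ x, (c : F) • x = x + φ0 x • v0 := fun x => by
      rw [← hg0, ClMax.toEquiv_apply, hc, smul_mulVec, one_mulVec]
    have h3 : (c : F) = 1 := by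
      have := h1 v0
      rw [hv0.1.1, zero_smul, add_zero] at this
      have h4 : ((c : F) - 1) • v0 = 0 := by rw [sub_smul, this, one_smul, sub_self]
      exact sub_eq_zero.1 ((smul_eq_zero.1 h4).resolve_right hv0.2.1)
    refine hv0.2.2 (LinearMap.ext fun x => ?_)
    have := h1 x
    rw [h3, one_smul, left_eq_add] at this
    exact (smul_eq_zero.1 this).resolve_right hv0.2.1
  have hirr := irred_iff.1 (irred_of_span (env_eq_top_iff.1 henv))
  have hI : TvGen.Irr (TvGen.Tv G) := by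
    refine tv_irr h2 (tv_ts hp h2 G) (TvGen.Tv.zl G) (TvGen.Tv.zr G) (fun W hW => ?_) hv0
    refine hirr W (le_subspaceStabilizer_iff.1 ((closure_le _).2 ?_))
    rintro g ⟨v, φ, hv, hg⟩
    refine mem_subspaceStabilizer_iff.2 fun x => ?_
    rw [← ClMax.toEquiv_apply, hg]
    by_cases h0 : φ x = 0
    · simp [h0]
    · refine ⟨fun hx => W.add_mem hx (W.smul_mem _ (hW v φ hv x hx h0)), fun hx => ?_⟩
      have h1 := hW v φ hv _ hx (by simpa [hv.1.1] using h0)
      simpa using W.sub_mem hx (W.smul_mem (φ x) h1)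
  rcases hI.dichotomy h2 with h | ⟨B, hA, hB, -⟩
  · intro g hg
    exact (hmem g).1 (TvGen.mem_of_det_eq_one G h _
      (by rw [ClMax.det_toEquiv]; exact ClMax.mem_specialLinear.1 hg))
  · exact (tv_not_alt h2 ho B hA hB).elim

end CfsgLib.Wl5
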